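import Cfsg.Agent.Lib.helper2.BN

/-! Matsumoto's theorem for the Weyl group of a (B,N)-pair: the group `W = N/(B ∩ N)` with its
distinguished generators is a Coxeter group (a group mapping onto `W`, generated by involutions
satisfying the braid relations, maps isomorphically). -/

set_option autoImplicit false

namespace Cfsg.Agent.Lib.helper11

open Cfsg
open Cfsg.Agent.Lib.helper2

/-- the alternating word `a b a …` of length `k` -/
def altW {α : Type*} (a b : α) : ℕ → List α
  | 0 => []
  | k + 1 => a :: altW b a k

theorem altW_length {α : Type*} : ∀ (k : ℕ) (a b : α), (altW a b k).length = k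
  | 0, _, _ => rfl
  | k + 1, a, b => by
    rw [altW, List.length_cons, altW_length k b a]

theorem altW_take {α : Type*} : ∀ (k j : ℕ) (a b : α), j ≤ k →
    (altW a b k).take j = altW a b j
  | _, 0, _, _, _ => by simp [altW]
  | 0, j + 1, _, _, h => by omega
  | k + 1, j + 1, a, b, h => by
    rw [altW, altW, List.take_succ_cons, altW_take k j b a (by omega)]

theorem altW_map {α β : Type*} (f : α → β) : ∀ (k : ℕ) (a b : α),
    (altW a b k).map f = altW (f a) (f b) k
  | 0, _, _ => rfl
  | k + 1, a, b => by
    rw [altW, altW, List.map_cons, altW_map f k b a]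

theorem conj_pow_aux {H : Type*} [Group H] (X Y : H) (k : ℕ) :
    X * (Y * X) ^ k = (X * Y) ^ k * X := by
  induction k with
  | zero => simp
  | succ k ih =>
    rw [pow_succ, ← mul_assoc, ih, pow_succ]
    group

theorem altW_prod_mul_inv {H : Type*} [Group H] (X Y : H) (hX : X * X = 1) (hY : Y * Y = 1)
    (k : ℕ) : (altW X Y k).prod * ((altW Y X k).prod)⁻¹ = (X * Y) ^ k := by
  induction k with
  | zero => simp [altW]
  | succ k ih =>
    have hXi : X⁻¹ = X := inv_eq_of_mul_eq_one_left hX
    have hYi : Y⁻¹ = Y := inv_eq_of_mul_eq_one_left hY
    have e1 : (altW Y X k).prod * ((altW X Y k).prod)⁻¹ = (Y * X) ^ k := by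
      have := congrArg (fun z => z⁻¹) ih
      simp only [mul_inv_rev, inv_inv] at this
      rw [this, ← inv_pow, mul_inv_rev, hXi, hYi]
    rw [altW, altW, List.prod_cons, List.prod_cons, mul_inv_rev, hYi]
    calc X * (altW Y X k).prod * (((altW X Y k).prod)⁻¹ * Y)
        = X * ((altW Y X k).prod * ((altW X Y k).prod)⁻¹) * Y := by group
      _ = X * (Y * X) ^ k * Y := by rw [e1]
      _ = (X * Y) ^ k * X * Y := by rw [conj_pow_aux]
      _ = (X * Y) ^ (k + 1) := by rw [pow_succ]; group

theorem altW_prod_eq_iff {H : Type*} [Group H] (X Y : H) (hX : X * X = 1) (hY : Y * Y = 1)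
    (k : ℕ) : (altW X Y k).prod = (altW Y X k).prod ↔ (X * Y) ^ k = 1 := by
  rw [← altW_prod_mul_inv X Y hX hY k, mul_inv_eq_one]

section

variable {G : Type*} [Group G] (P : Cfsg.BNPair G)

theorem wp_altW (a b : P.S) (k : ℕ) :
    BN.wp P (altW a b k) = (altW (BN.σ P a) (BN.σ P b) k).prod := by
  unfold BN.wp
  rw [altW_map]

theorem wp_altW_eq_iff (a b : P.S) (k : ℕ) :
    BN.wp P (altW a b k) = BN.wp P (altW b a k) ↔ (BN.σ P a * BN.σ P b) ^ k = 1 := by
  rw [wp_altW, wp_altW]
  exact altW_prod_eq_iff _ _ (BN.σ_mul_self P a) (BN.σ_mul_self P b) k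

/-- if `x ≠ y` are both left descents of `w`, then `w` has a reduced word starting with the
alternating word of length `k` in `x`, `y`, for every `k` up to the order of `x y` -/
theorem exists_alt_red (w : BN.W P) : ∀ (k : ℕ) (x y : P.S), BN.Q P x w → BN.Q P y w →
    k ≤ orderOf (BN.σ P x * BN.σ P y) →
    ∃ V : List P.S, BN.wp P (altW x y k ++ V) = w ∧ (altW x y k ++ V).length = BN.len P w := by
  intro k
  induction k with
  | zero =>
    intro x y _ _ _
    obtain ⟨l, hl, hlen⟩ := BN.exists_reduced P w
    exact ⟨l, by simpa [altW] using hl, by simpa [altW] using hlen⟩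
  | succ k ih =>
    intro x y hx hy hk
    have hk' : k ≤ orderOf (BN.σ P y * BN.σ P x) := by
      have e0 : orderOf (BN.σ P y * BN.σ P x) = orderOf (BN.σ P x * BN.σ P y) :=
        SemiconjBy.orderOf_eq (BN.σ P x)
          (show BN.σ P x * (BN.σ P y * BN.σ P x) = BN.σ P x * BN.σ P y * BN.σ P x from
            (mul_assoc _ _ _).symm)
      rw [e0]
      omega
    obtain ⟨V, hV, hlen⟩ := ih y x hy hx hk'
    have hx' : BN.Q P x (BN.wp P (altW y x k ++ V)) := by rw [hV]; exact hx
    obtain ⟨l1, z, l2, e, he⟩ := BN.exchange P x _ hx'
    by_cases hj : l1.length < k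
    · exfalso
      have hA : (altW y x k).length = k := altW_length k y x
      have t1 : l1 = altW y x l1.length := by
        have := congrArg (List.take l1.length) e
        rw [List.take_append_of_le_length (by omega), altW_take k _ y x (by omega),
          List.take_left'  rfl] at this
        exact this.symm
      have t2 : l1 ++ [z] = altW y x (l1.length + 1) := by
        have := congrArg (List.take (l1.length + 1)) e
        have e3 : l1 ++ z :: l2 = (l1 ++ [z]) ++ l2 := by simp
        rw [List.take_append_of_le_length (by omega), altW_take k _ y x (by omega), e3,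
          List.take_left' (by simp)] at this
        exact this.symm
      have h1 : BN.wp P (altW x y (l1.length + 1)) = BN.wp P (altW y x (l1.length + 1)) := by
        rw [← t2, BN.wp_append, BN.wp_cons, BN.wp_nil, mul_one, ← he, altW, BN.wp_cons, ← t1]
      rw [wp_altW_eq_iff] at h1
      have := Nat.le_of_dvd (by omega) (orderOf_dvd_of_pow_eq_one h1)
      omega
    · have hA : (altW y x k).length = k := altW_length k y x
      have t1 : altW y x k = l1.take k := by
        have := congrArg (List.take k) e
        rw [List.take_left' hA, List.take_append_of_le_length (by omega)] at this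
        exact this
      have t2 : l1 = altW y x k ++ l1.drop k := by
        rw [t1, List.take_append_drop]
      refine ⟨l1.drop k ++ l2, ?_, ?_⟩
      · have e4 : altW x y (k + 1) ++ (l1.drop k ++ l2) = x :: (l1 ++ l2) := by
          rw [altW, List.cons_append, ← List.append_assoc, ← t2]
        rw [e4, BN.wp_cons, BN.wp_append, ← mul_assoc, he, ← hV, e, BN.wp_append, BN.wp_cons,
          mul_assoc]
      · have e5 : (altW y x k ++ V).length = (l1 ++ z :: l2).length := by rw [e]
        rw [← hlen, e5]
        have e6 : (altW x y (k + 1)).length = k + 1 := altW_length _ _ _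
        have e7 : (l1.drop k).length = l1.length - k := List.length_drop
        simp only [List.length_append, List.length_cons, e6, e7]
        omega

/-- Matsumoto: the product in `C` of a reduced word depends only on its product in `W` -/
theorem cp_eq_of_red {C : Type*} [Group C] (c : P.S → C) (hsq : ∀ a, c a * c a = 1)
    (hbraid : ∀ a b : P.S, a ≠ b → (c a * c b) ^ orderOf (BN.σ P a * BN.σ P b) = 1)
    (hfin : ∀ a b : P.S, 0 < orderOf (BN.σ P a * BN.σ P b)) :
    ∀ (n : ℕ) (L L' : List P.S), L.length = n → BN.Red P L → BN.Red P L' →
      BN.wp P L = BN.wp P L' → (L.map c).prod = (L'.map c).prod := by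
  intro n
  induction n with
  | zero =>
    intro L L' hlen _ hL' h
    have hL0 : L = [] := List.length_eq_zero_iff.mp hlen
    subst hL0
    have : L'.length = 0 := by
      unfold BN.Red at hL'
      rw [← hL', ← h, BN.wp_nil]
      exact (BN.len_eq_zero_iff P).mpr rfl
    have hL0' : L' = [] := List.length_eq_zero_iff.mp this
    rw [hL0']
  | succ n ih =>
    intro L L' hlen hL hL' h
    have hlen' : L'.length = n + 1 := by
      unfold BN.Red at hL hL'
      rw [← hL', ← h, hL, hlen]
    match L, L', hlen, hlen', hL, hL', h with
    | a :: S, b :: S', hlen, hlen', hL, hL', h =>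
      have hSlen : S.length = n := by simpa using hlen
      have hSlen' : S'.length = n := by simpa using hlen'
      by_cases hab : a = b
      · subst hab
        rw [BN.wp_cons, BN.wp_cons] at h
        have := ih S S' hSlen hL.tail hL'.tail (mul_left_cancel h)
        rw [List.map_cons, List.map_cons, List.prod_cons, List.prod_cons, this]
      · have hQa : BN.Q P a (BN.wp P (a :: S)) := hL.Q_head
        have hQb : BN.Q P b (BN.wp P (a :: S)) := by
          rw [h]
          exact hL'.Q_head
        have hm := hfin a b
        obtain ⟨m', hm'⟩ : ∃ m', orderOf (BN.σ P a * BN.σ P b) = m' + 1 :=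
          ⟨orderOf (BN.σ P a * BN.σ P b) - 1, by omega⟩
        obtain ⟨V, hV, hVlen⟩ := exists_alt_red P (BN.wp P (a :: S)) _ a b hQa hQb le_rfl
        have hlenw : BN.len P (BN.wp P (a :: S)) = n + 1 := by
          unfold BN.Red at hL
          rw [hL, hlen]
        have hbr : BN.wp P (altW a b (m' + 1)) = BN.wp P (altW b a (m' + 1)) := by
          rw [wp_altW_eq_iff, ← hm']
          exact pow_orderOf_eq_one _
        rw [hm'] at hV hVlen
        have hA1 : (altW b a m').length = m' := altW_length _ _ _
        have hA2 : (altW a b m').length = m' := altW_length _ _ _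
        have hVl : m' + V.length = n := by
          rw [hlenw, altW] at hVlen
          simp only [List.length_append, List.length_cons, hA1] at hVlen
          omega
        -- first word
        have hV1 : BN.wp P (a :: (altW b a m' ++ V)) = BN.wp P (a :: S) := by
          rw [← hV, altW, List.cons_append]
        have hred1 : BN.Red P (a :: (altW b a m' ++ V)) := by
          unfold BN.Red
          rw [hV1, hlenw]
          simp only [List.length_append, List.length_cons, hA1]
          omega
        have hV2 : BN.wp P (b :: (altW a b m' ++ V)) = BN.wp P (a :: S) := by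
          rw [← hV, BN.wp_append, hbr, ← BN.wp_append, altW, List.cons_append]
        have hred2 : BN.Red P (b :: (altW a b m' ++ V)) := by
          unfold BN.Red
          rw [hV2, hlenw]
          simp only [List.length_append, List.length_cons, hA2]
          omega
        have e1 : (S.map c).prod = ((altW b a m' ++ V).map c).prod := by
          apply ih S _ hSlen hL.tail hred1.tail
          rw [BN.wp_cons, BN.wp_cons] at hV1
          exact (mul_left_cancel hV1).symm
        have e2 : (S'.map c).prod = ((altW a b m' ++ V).map c).prod := by
          apply ih S' _ hSlen' hL'.tail hred2.tail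
          rw [h, BN.wp_cons, BN.wp_cons] at hV2
          exact (mul_left_cancel hV2).symm
        have e3 : ((altW a b (m' + 1)).map c).prod = ((altW b a (m' + 1)).map c).prod := by
          rw [altW_map, altW_map, altW_prod_eq_iff _ _ (hsq a) (hsq b), ← hm']
          exact hbraid a b hab
        calc ((a :: S).map c).prod = c a * ((altW b a m' ++ V).map c).prod := by
              rw [List.map_cons, List.prod_cons, e1]
          _ = ((altW a b (m' + 1)).map c).prod * (V.map c).prod := by
              rw [altW, List.map_append, List.prod_append, List.map_cons, List.prod_cons,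
                mul_assoc]
          _ = ((altW b a (m' + 1)).map c).prod * (V.map c).prod := by rw [e3]
          _ = c b * ((altW a b m' ++ V).map c).prod := by
              rw [altW, List.map_append, List.prod_append, List.map_cons, List.prod_cons,
                mul_assoc]
          _ = ((b :: S').map c).prod := by
              rw [List.map_cons, List.prod_cons, e2]

/-- a group generated by involutions satisfying the braid relations of `W` and mapping onto the
generators of `W` maps injectively -/
theorem cox_injective {C : Type*} [Group C] (c : P.S → C) (hsq : ∀ a, c a * c a = 1)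
    (hbraid : ∀ a b : P.S, a ≠ b → (c a * c b) ^ orderOf (BN.σ P a * BN.σ P b) = 1)
    (hfin : ∀ a b : P.S, 0 < orderOf (BN.σ P a * BN.σ P b))
    (f : C →* BN.W P) (hf : ∀ a, f (c a) = BN.σ P a)
    (hgen : Subgroup.closure (Set.range c) = ⊤) : Function.Injective f := by
  choose rw hrw using BN.exists_reduced P
  let g : BN.W P → C := fun w => ((rw w).map c).prod
  have hg : ∀ L, BN.Red P L → g (BN.wp P L) = (L.map c).prod := by
    intro L hL
    refine cp_eq_of_red P c hsq hbraid hfin _ (rw (BN.wp P L)) L rfl ?_ hL (hrw _).1
    unfold BN.Red
    rw [(hrw _).1]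
    exact (hrw _).2.symm
  have hstep0 : ∀ s w, ¬ BN.Q P s w → g (BN.σ P s * w) = c s * g w := by
    intro s w hq
    have hlt := BN.len_lt_of_not_Q P hq
    have hle := BN.len_mul_le P s w
    have hred : BN.Red P (s :: rw w) := by
      unfold BN.Red
      rw [BN.wp_cons, (hrw w).1, List.length_cons, (hrw w).2]
      omega
    have := hg (s :: rw w) hred
    rw [BN.wp_cons, (hrw w).1] at this
    rw [this, List.map_cons, List.prod_cons]
  have hstep : ∀ s w, g (BN.σ P s * w) = c s * g w := by
    intro s w
    by_cases hq : BN.Q P s w
    · have hq' : ¬ BN.Q P s (BN.σ P s * w) := by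
        intro h'
        rw [BN.Q_iff] at hq h'
        rw [BN.σ_mul_cancel] at h'
        omega
      have := hstep0 s (BN.σ P s * w) hq'
      rw [BN.σ_mul_cancel] at this
      rw [this, ← mul_assoc, hsq, one_mul]
    · exact hstep0 s w hq
  have hg1 : g 1 = 1 := by
    have := hg [] (by unfold BN.Red; simpa using (BN.len_eq_zero_iff P).mpr rfl)
    simpa using this
  have key : ∀ x : C, ∀ w, g (f x * w) = x * g w := by
    intro x
    have hx : x ∈ Subgroup.closure (Set.range c) := by
      rw [hgen]
      trivial
    induction hx using Subgroup.closure_induction with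
    | mem x hx =>
      obtain ⟨a, rfl⟩ := hx
      intro w
      rw [hf]
      exact hstep a w
    | one =>
      intro w
      simp
    | mul x y _ _ hx hy =>
      intro w
      rw [map_mul, mul_assoc, hx, hy, mul_assoc]
    | inv x _ hx =>
      intro w
      have := hx ((f x)⁻¹ * w)
      rw [mul_inv_cancel_left] at this
      rw [map_inv, this]
      group
  intro x y hxy
  have h1 := key x 1
  have h2 := key y 1
  rw [mul_one, hg1, mul_one] at h1 h2
  rw [← h1, ← h2, hxy]

end

end Cfsg.Agent.Lib.helper11
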