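import Cfsg.Agent.Lib.helper11c.Cox1
import Cfsg.Agent.Lib.helper11b.Count4
import Cfsg.Agent.Lib.helper11b.PoinAll
import Cfsg.Agent.Lib.helper11b.Count3

/-! The Weyl group `N/H` of a Chevalley group, and the group generated by the fundamental
reflections on the roots, are the Coxeter group of the type. -/

set_option autoImplicit false

namespace Cfsg.Agent.Lib.helper11

open Cfsg Cfsg.Lie
open Cfsg.Agent.Lib.helper2

theorem zp_of_mem (D : ChevalleyDatum)
    (hD : D ∈ [chevG2, chevB2, chevD4, chevF4, chevE6, chevE7, chevE8]) (hnx : NXAll D) :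
    ZP D hnx D.rank := by
  simp only [List.mem_cons, List.not_mem_nil, or_false] at hD
  rcases hD with rfl | rfl | rfl | rfl | rfl | rfl | rfl
  · exact (poin_G2 hnx 1 le_rfl).1
  · exact (poin_B2 hnx 1 le_rfl).1
  · exact (poin_D4 hnx 1 le_rfl).1
  · exact (poin_F4 hnx 1 le_rfl).1
  · exact (poin_E6 hnx 1 le_rfl).1
  · exact (poin_E7 hnx 1 le_rfl).1
  · exact (poin_E8 hnx 1 le_rfl).1

/-- `k` copies of the word `[i, j]` -/
def repW (i j : ℕ) : ℕ → List ℕ
  | 0 => []
  | k + 1 => i :: j :: repW i j k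

theorem repW_lt (i j r : ℕ) (hi : i < r) (hj : j < r) : ∀ k, ∀ x ∈ repW i j k, x < r := by
  intro k
  induction k with
  | zero => simp [repW]
  | succ k ih =>
    intro x hx
    simp only [repW, List.mem_cons] at hx
    rcases hx with rfl | rfl | hx
    · exact hi
    · exact hj
    · exact ih x hx

/-- the product of the reflections `i`, `j` has order `m` on the roots -/
def ordOK (D : ChevalleyDatum) (i j m : ℕ) : Bool :=
  decide (0 < m) && (List.range D.nroots).all (fun r => wAct D (repW i j m) r == r) &&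
  (List.range m).all (fun k => k == 0 ||
    (List.range D.nroots).any fun r => wAct D (repW i j k) r != r)

theorem ordOK_pos (D : ChevalleyDatum) (i j m : ℕ) (h : ordOK D i j m = true) : 0 < m := by
  unfold ordOK at h
  simp only [Bool.and_eq_true, decide_eq_true_eq] at h
  exact h.1.1

theorem wPerm_repW (D : ChevalleyDatum) (hnx : NXAll D) (i j k : ℕ) :
    wPerm D hnx (repW i j k) = (sP D hnx i * sP D hnx j) ^ k := by
  induction k with
  | zero => simp [repW]
  | succ k ih =>
    rw [repW, wPerm_cons, wPerm_cons, ih, pow_succ', mul_assoc]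

theorem wPerm_eq_one_iff (D : ChevalleyDatum) (hnx : NXAll D) (l : List ℕ)
    (hl : ∀ i ∈ l, i < D.rank) : wPerm D hnx l = 1 ↔ ∀ r < D.nroots, wAct D l r = r := by
  constructor
  · intro h r hr
    have := wPerm_apply D hnx l hl ⟨r, hr⟩
    rw [h] at this
    exact this.symm
  · intro h
    ext r
    rw [wPerm_apply D hnx l hl r]
    exact h r r.2

theorem orderOf_sP_mul (D : ChevalleyDatum) (hnx : NXAll D) (i j m : ℕ) (hi : i < D.rank)
    (hj : j < D.rank) (h : ordOK D i j m = true) : orderOf (sP D hnx i * sP D hnx j) = m := by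
  have hm := ordOK_pos D i j m h
  unfold ordOK at h
  simp only [Bool.and_eq_true, decide_eq_true_eq, List.all_eq_true, List.mem_range, beq_iff_eq,
    Bool.or_eq_true, List.any_eq_true, bne_iff_ne] at h
  obtain ⟨⟨-, h1⟩, h2⟩ := h
  rw [orderOf_eq_iff hm]
  constructor
  · rw [← wPerm_repW, wPerm_eq_one_iff D hnx _ (repW_lt i j _ hi hj m)]
    exact h1
  · intro k hk hk0 hcon
    rw [← wPerm_repW, wPerm_eq_one_iff D hnx _ (repW_lt i j _ hi hj k)] at hcon
    rcases h2 k hk with h3 | ⟨r, hr, h3⟩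
    · omega
    · exact h3 (hcon r hr)

section

variable {F : Type*} [Field F] (D : ChevalleyDatum)
  (hD : D ∈ [chevG2, chevB2, chevD4, chevF4, chevE6, chevE7, chevE8])
  (P : Cfsg.BNPair ↥(D.group F)) (hP : IsStdBN D P)

theorem wOf_repW (i j k : ℕ) :
    wOf D hD P hP (repW i j k) = (σi D hD P hP i * σi D hD P hP j) ^ k := by
  induction k with
  | zero => simp [repW]
  | succ k ih =>
    rw [repW, wOf_cons, wOf_cons, ih, pow_succ', mul_assoc]

theorem wOf_eq_one_iff (ce : Certs F D) (l : List ℕ) (hl : ∀ i ∈ l, i < D.rank) :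
    wOf D hD P hP l = 1 ↔ wPerm D ce.hnx l = 1 := by
  have hZ := zp_of_mem D hD ce.hnx
  constructor
  · intro h1
    have := wPerm_eq_of_wOf_eq D hD P hP ce hZ l [] hl (by simp) (by rw [h1]; rfl)
    simpa using this
  · intro h1
    have := wOf_eq_of_wPerm_eq D hD P hP ce l [] hl (by simp) (by rw [h1]; rfl)
    simpa using this

theorem orderOf_σi_mul (ce : Certs F D) (i j m : ℕ) (hi : i < D.rank) (hj : j < D.rank)
    (h : ordOK D i j m = true) : orderOf (σi D hD P hP i * σi D hD P hP j) = m := by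
  have hm := ordOK_pos D i j m h
  have hperm := orderOf_sP_mul D ce.hnx i j m hi hj h
  have key : ∀ k, (σi D hD P hP i * σi D hD P hP j) ^ k = 1 ↔
      (sP D ce.hnx i * sP D ce.hnx j) ^ k = 1 := by
    intro k
    rw [← wOf_repW, ← wPerm_repW D ce.hnx]
    exact wOf_eq_one_iff D hD P hP ce _ (repW_lt i j _ hi hj k)
  rw [orderOf_eq_iff hm] at hperm ⊢
  exact ⟨(key m).mpr hperm.1, fun k hk hk0 hc => hperm.2 k hk hk0 ((key k).mp hc)⟩

variable (n : ℕ) (hn : D.rank = n) (M : CoxeterMatrix (Fin n)) (ce : Certs F D)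
  (hM : ∀ i j : Fin n, ordOK D i j (M i j) = true)

/-- the homomorphism from the Coxeter group onto `W = N/H` -/
noncomputable def coxToW : M.Group →* BN.W P :=
  M.toCoxeterSystem.lift ⟨fun i => σi D hD P hP i.val, by
    intro i j
    have := orderOf_σi_mul D hD P hP ce i j (M i j) (hn ▸ i.2) (hn ▸ j.2) (hM i j)
    rw [← this]
    exact pow_orderOf_eq_one _⟩

theorem coxToW_simple (i : Fin n) :
    coxToW D hD P hP n hn M ce hM (M.simple i) = σi D hD P hP i.val := by
  have := M.toCoxeterSystem.lift_apply_simple (G := BN.W P)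
    (f := fun i => σi D hD P hP i.val) (by
      intro i j
      have := orderOf_σi_mul D hD P hP ce i j (M i j) (hn ▸ i.2) (hn ▸ j.2) (hM i j)
      rw [← this]
      exact pow_orderOf_eq_one _) i
  rw [CoxeterMatrix.toCoxeterSystem_simple] at this
  exact this

theorem coxToW_wordProd (ω : List (Fin n)) :
    coxToW D hD P hP n hn M ce hM (M.toCoxeterSystem.wordProd ω) =
      wOf D hD P hP (ω.map Fin.val) := by
  induction ω with
  | nil => simp [CoxeterSystem.wordProd]
  | cons i ω ih =>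
    rw [CoxeterSystem.wordProd_cons, map_mul, ih, List.map_cons, wOf_cons,
      CoxeterMatrix.toCoxeterSystem_simple, coxToW_simple]

theorem coxToW_surjective : Function.Surjective (coxToW D hD P hP n hn M ce hM) := by
  have key : ∀ l : List ℕ, (∀ i ∈ l, i < D.rank) →
      wOf D hD P hP l ∈ (coxToW D hD P hP n hn M ce hM).range := by
    intro l
    induction l with
    | nil =>
      intro _
      rw [wOf_nil]
      exact one_mem _
    | cons i l ih =>
      intro hl
      rw [wOf_cons]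
      have hi := hl i List.mem_cons_self
      exact mul_mem ⟨M.simple ⟨i, hn ▸ hi⟩, coxToW_simple D hD P hP n hn M ce hM _⟩
        (ih (fun j hj => hl j (List.mem_cons_of_mem _ hj)))
  intro w
  obtain ⟨l, hl, rfl⟩ := exists_wOf D hD P hP w
  exact key l hl

theorem coxToW_injective : Function.Injective (coxToW D hD P hP n hn M ce hM) := by
  classical
  choose idx hidx1 hidx2 using (fun s : P.S => exists_of_mem_S hD hP s.1 s.2)
  have hσ : ∀ s : P.S, BN.σ P s = σi D hD P hP (idx s) := by
    intro s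
    rw [σi_eq D hD P hP _ (hidx1 s)]
    congr 1
    exact Subtype.ext (hidx2 s)
  have hord : ∀ a b : P.S, orderOf (BN.σ P a * BN.σ P b) =
      M ⟨idx a, hn ▸ hidx1 a⟩ ⟨idx b, hn ▸ hidx1 b⟩ := by
    intro a b
    rw [hσ a, hσ b]
    exact orderOf_σi_mul D hD P hP ce _ _ _ (hidx1 a) (hidx1 b) (hM ⟨idx a, _⟩ ⟨idx b, _⟩)
  apply cox_injective P (fun s : P.S => M.simple ⟨idx s, hn ▸ hidx1 s⟩)
  · intro a
    have := M.toCoxeterSystem.simple_mul_simple_self ⟨idx a, hn ▸ hidx1 a⟩
    rw [CoxeterMatrix.toCoxeterSystem_simple] at this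
    exact this
  · intro a b _
    rw [hord a b]
    have := M.toCoxeterSystem.simple_mul_simple_pow ⟨idx a, hn ▸ hidx1 a⟩ ⟨idx b, hn ▸ hidx1 b⟩
    rw [CoxeterMatrix.toCoxeterSystem_simple] at this
    exact this
  · intro a b
    rw [hord a b]
    exact ordOK_pos D _ _ _ (hM ⟨idx a, hn ▸ hidx1 a⟩ ⟨idx b, hn ▸ hidx1 b⟩)
  · intro a
    rw [coxToW_simple, hσ a]
  · rw [eq_top_iff, ← M.toCoxeterSystem.subgroup_closure_range_simple]
    apply Subgroup.closure_mono
    rintro _ ⟨i, rfl⟩
    have hi : i.val < D.rank := hn ▸ i.2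
    refine ⟨⟨sG D hD i.val, sG_mem_S hD hP i.val hi⟩, ?_⟩
    rw [CoxeterMatrix.toCoxeterSystem_simple]
    show M.simple ⟨idx ⟨sG D hD i.val, sG_mem_S hD hP i.val hi⟩, _⟩ = M.simple i
    congr 1
    apply Fin.ext
    show idx ⟨sG D hD i.val, sG_mem_S hD hP i.val hi⟩ = i.val
    by_contra hne
    set s : P.S := ⟨sG D hD i.val, sG_mem_S hD hP i.val hi⟩ with hs
    have h1 : σi D hD P hP i.val = σi D hD P hP (idx s) := by
      rw [← hσ s, σi_eq D hD P hP _ hi]
    have h2 := orderOf_σi_mul D hD P hP ce _ _ _ (hidx1 s) hi (hM ⟨idx s, hn ▸ hidx1 s⟩ i)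
    rw [← h1, σi_mul_self, orderOf_one] at h2
    exact M.off_diagonal ⟨idx s, hn ▸ hidx1 s⟩ i (fun e => hne (congrArg Fin.val e)) h2.symm

end

section

variable (D : ChevalleyDatum)
  (hD : D ∈ [chevG2, chevB2, chevD4, chevF4, chevE6, chevE7, chevE8]) (hnx : NXAll D)
  (n : ℕ) (hn : D.rank = n) (M : CoxeterMatrix (Fin n))
  (hM : ∀ i j : Fin n, ordOK D i j (M i j) = true)

/-- the homomorphism from the Coxeter group to the permutations of the roots -/
noncomputable def coxToPerm : M.Group →* Equiv.Perm (Fin D.nroots) :=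
  M.toCoxeterSystem.lift ⟨fun i => sP D hnx i.val, by
    intro i j
    have := orderOf_sP_mul D hnx i j (M i j) (hn ▸ i.2) (hn ▸ j.2) (hM i j)
    rw [← this]
    exact pow_orderOf_eq_one _⟩

theorem coxToPerm_simple (i : Fin n) :
    coxToPerm D hnx n hn M hM (M.simple i) = sP D hnx i.val := by
  have := M.toCoxeterSystem.lift_apply_simple (G := Equiv.Perm (Fin D.nroots))
    (f := fun i => sP D hnx i.val) (by
      intro i j
      have := orderOf_sP_mul D hnx i j (M i j) (hn ▸ i.2) (hn ▸ j.2) (hM i j)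
      rw [← this]
      exact pow_orderOf_eq_one _) i
  rw [CoxeterMatrix.toCoxeterSystem_simple] at this
  exact this

theorem coxToPerm_wordProd (ω : List (Fin n)) :
    coxToPerm D hnx n hn M hM (M.toCoxeterSystem.wordProd ω) = wPerm D hnx (ω.map Fin.val) := by
  induction ω with
  | nil => simp [CoxeterSystem.wordProd]
  | cons i ω ih =>
    rw [CoxeterSystem.wordProd_cons, map_mul, ih, List.map_cons, wPerm_cons,
      CoxeterMatrix.toCoxeterSystem_simple, coxToPerm_simple]

include hD in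
theorem coxToPerm_injective : Function.Injective (coxToPerm D hnx n hn M hM) := by
  have ce := certs_of_mem ℚ D hD
  obtain ⟨P, hP⟩ := exists_stdBN D hD ce
  rw [injective_iff_map_eq_one]
  intro x hx
  obtain ⟨ω, rfl⟩ := M.toCoxeterSystem.wordProd_surjective x
  rw [coxToPerm_wordProd] at hx
  have hl : ∀ i ∈ ω.map Fin.val, i < D.rank := by
    intro i hi
    rw [List.mem_map] at hi
    obtain ⟨j, -, rfl⟩ := hi
    exact hn ▸ j.2
  have h1 := (wOf_eq_one_iff D hD P hP ce _ hl).mpr hx
  rw [← coxToW_wordProd D hD P hP n hn M ce hM] at h1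
  exact (injective_iff_map_eq_one _).mp (coxToW_injective D hD P hP n hn M ce hM) _ h1

theorem coxToPerm_range : (coxToPerm D hnx n hn M hM).range = Wk D hnx D.rank := by
  rw [MonoidHom.range_eq_map, ← M.toCoxeterSystem.subgroup_closure_range_simple,
    MonoidHom.map_closure]
  unfold Wk
  congr 1
  ext g
  constructor
  · rintro ⟨_, ⟨i, rfl⟩, rfl⟩
    refine ⟨i.val, hn ▸ i.2, ?_⟩
    rw [CoxeterMatrix.toCoxeterSystem_simple]
    exact coxToPerm_simple D hnx n hn M hM i
  · rintro ⟨i, hi, rfl⟩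
    refine ⟨M.simple ⟨i, hn ▸ hi⟩, ⟨⟨i, hn ▸ hi⟩, ?_⟩, coxToPerm_simple D hnx n hn M hM _⟩
    rw [CoxeterMatrix.toCoxeterSystem_simple]

end

end Cfsg.Agent.Lib.helper11
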