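import Cfsg.Agent.Lib.helper11c.CoxOK

/-! The orders of the Weyl groups, and of the Coxeter groups of the seven types. -/

set_option autoImplicit false

namespace Cfsg.Agent.Lib.helper11

open Cfsg Cfsg.Lie

theorem ps_one (D : ChevalleyDatum) (hnx : NXAll D) (k : ℕ) :
    PS D hnx k 1 = Nat.card ↥(Wk D hnx k) := by
  unfold PS
  rw [Nat.card_eq_fintype_card]
  simp

theorem card_Wk_G2 (hnx : NXAll chevG2) :
    Nat.card ↥(Wk chevG2 hnx chevG2.rank) = 12 := by
  have h := (chain chevG2 hnx (posOK_of_mem chevG2 (by simp)) (tri_of_mem chevG2 (by simp))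
    poinRG2 poinKG2 poinRG2_ok poinLsG2 (by
    intro k h1 h2
    have hr : chevG2.rank = 2 := rfl
    rw [hr] at h2
    interval_cases k
    · exact poinLG2_1_ok
    · exact poinLG2_2_ok) chevG2.rank le_rfl).2 1
  rw [← ps_one, h]
  decide +kernel

theorem card_Wk_B2 (hnx : NXAll chevB2) :
    Nat.card ↥(Wk chevB2 hnx chevB2.rank) = 8 := by
  have h := (chain chevB2 hnx (posOK_of_mem chevB2 (by simp)) (tri_of_mem chevB2 (by simp))
    poinRB2 poinKB2 poinRB2_ok poinLsB2 (by
    intro k h1 h2
    have hr : chevB2.rank = 2 := rfl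
    rw [hr] at h2
    interval_cases k
    · exact poinLB2_1_ok
    · exact poinLB2_2_ok) chevB2.rank le_rfl).2 1
  rw [← ps_one, h]
  decide +kernel

theorem card_Wk_D4 (hnx : NXAll chevD4) :
    Nat.card ↥(Wk chevD4 hnx chevD4.rank) = 192 := by
  have h := (chain chevD4 hnx (posOK_of_mem chevD4 (by simp)) (tri_of_mem chevD4 (by simp))
    poinRD4 poinKD4 poinRD4_ok poinLsD4 (by
    intro k h1 h2
    have hr : chevD4.rank = 4 := rfl
    rw [hr] at h2
    interval_cases k
    · exact poinLD4_1_ok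
    · exact poinLD4_2_ok
    · exact poinLD4_3_ok
    · exact poinLD4_4_ok) chevD4.rank le_rfl).2 1
  rw [← ps_one, h]
  decide +kernel

theorem card_Wk_F4 (hnx : NXAll chevF4) :
    Nat.card ↥(Wk chevF4 hnx chevF4.rank) = 1152 := by
  have h := (chain chevF4 hnx (posOK_of_mem chevF4 (by simp)) (tri_of_mem chevF4 (by simp))
    poinRF4 poinKF4 poinRF4_ok poinLsF4 (by
    intro k h1 h2
    have hr : chevF4.rank = 4 := rfl
    rw [hr] at h2
    interval_cases k
    · exact poinLF4_1_ok
    · exact poinLF4_2_ok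
    · exact poinLF4_3_ok
    · exact poinLF4_4_ok) chevF4.rank le_rfl).2 1
  rw [← ps_one, h]
  decide +kernel

theorem card_Wk_E6 (hnx : NXAll chevE6) :
    Nat.card ↥(Wk chevE6 hnx chevE6.rank) = 51840 := by
  have h := (chain chevE6 hnx (posOK_of_mem chevE6 (by simp)) (tri_of_mem chevE6 (by simp))
    poinRE6 poinKE6 poinRE6_ok poinLsE6 (by
    intro k h1 h2
    have hr : chevE6.rank = 6 := rfl
    rw [hr] at h2
    interval_cases k
    · exact poinLE6_1_ok
    · exact poinLE6_2_ok
    · exact poinLE6_3_ok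
    · exact poinLE6_4_ok
    · exact poinLE6_5_ok
    · exact poinLE6_6_ok) chevE6.rank le_rfl).2 1
  rw [← ps_one, h]
  decide +kernel

theorem card_Wk_E7 (hnx : NXAll chevE7) :
    Nat.card ↥(Wk chevE7 hnx chevE7.rank) = 2903040 := by
  have h := (chain chevE7 hnx (posOK_of_mem chevE7 (by simp)) (tri_of_mem chevE7 (by simp))
    poinRE7 poinKE7 poinRE7_ok poinLsE7 (by
    intro k h1 h2
    have hr : chevE7.rank = 7 := rfl
    rw [hr] at h2
    interval_cases k
    · exact poinLE7_1_ok
    · exact poinLE7_2_ok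
    · exact poinLE7_3_ok
    · exact poinLE7_4_ok
    · exact poinLE7_5_ok
    · exact poinLE7_6_ok
    · exact poinLE7_7_ok) chevE7.rank le_rfl).2 1
  rw [← ps_one, h]
  decide +kernel

theorem card_Wk_E8 (hnx : NXAll chevE8) :
    Nat.card ↥(Wk chevE8 hnx chevE8.rank) = 696729600 := by
  have h := (chain chevE8 hnx (posOK_of_mem chevE8 (by simp)) (tri_of_mem chevE8 (by simp))
    poinRE8 poinKE8 poinRE8_ok poinLsE8 (by
    intro k h1 h2
    have hr : chevE8.rank = 8 := rfl
    rw [hr] at h2
    interval_cases k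
    · exact poinLE8_1_ok
    · exact poinLE8_2_ok
    · exact poinLE8_3_ok
    · exact poinLE8_4_ok
    · exact poinLE8_5_ok
    · exact poinLE8_6_ok
    · exact poinLE8_7_ok
    · exact poinLE8_8_ok) chevE8.rank le_rfl).2 1
  rw [← ps_one, h]
  decide +kernel

/-- the Coxeter group has the order of the reflection group on the roots -/
theorem card_cox (D : ChevalleyDatum)
    (hD : D ∈ [chevG2, chevB2, chevD4, chevF4, chevE6, chevE7, chevE8]) (hnx : NXAll D)
    (n : ℕ) (hn : D.rank = n) (M : CoxeterMatrix (Fin n))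
    (hM : ∀ i j : Fin n, ordOK D i j (M i j) = true) :
    Nat.card M.Group = Nat.card ↥(Wk D hnx D.rank) := by
  rw [← coxToPerm_range D hnx n hn M hM]
  exact Nat.card_congr
    (MonoidHom.ofInjective (coxToPerm_injective D hD hnx n hn M hM)).toEquiv

end Cfsg.Agent.Lib.helper11
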