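import Cfsg.Agent.Lib.helper11c.Cox3

/-! Orders of elements of the Coxeter groups, computed on the roots with packed tables. -/

set_option autoImplicit false

namespace Cfsg.Agent.Lib.helper11

open Cfsg Cfsg.Lie

/-- action of a word on root indices, with packed reflection tables -/
def wActT (R : List ℕ) : List ℕ → ℕ → ℕ
  | [], r => r
  | i :: l, r => tg (R.getD i 0) (wActT R l r)

theorem wActT_eq (D : ChevalleyDatum) (hnx : NXAll D) (R : List ℕ) (hR : reflOK D R = true)
    (l : List ℕ) (hl : ∀ i ∈ l, i < D.rank) (r : ℕ) (hr : r < D.nroots) :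
    wActT R l r = wAct D l r := by
  unfold reflOK at hR
  simp only [allLt_spec, force_eq, nbeq_iff] at hR
  induction l with
  | nil => rfl
  | cons i l ih =>
    have hl' : ∀ j ∈ l, j < D.rank := fun j hj => hl j (List.mem_cons_of_mem _ hj)
    show tg (R.getD i 0) (wActT R l r) = rr D i (wAct D l r)
    rw [ih hl', hR i (hl i List.mem_cons_self) _ (wAct_lt D hnx l hl' r hr)]

/-- `k` copies of a word -/
def repL (l : List ℕ) : ℕ → List ℕ
  | 0 => []
  | k + 1 => l ++ repL l k

theorem repL_lt (l : List ℕ) (n : ℕ) (hl : ∀ i ∈ l, i < n) : ∀ k, ∀ x ∈ repL l k, x < n := by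
  intro k
  induction k with
  | zero => simp [repL]
  | succ k ih =>
    intro x hx
    rw [repL, List.mem_append] at hx
    rcases hx with hx | hx
    · exact hl x hx
    · exact ih x hx

theorem wPerm_repL (D : ChevalleyDatum) (hnx : NXAll D) (l : List ℕ) (k : ℕ) :
    wPerm D hnx (repL l k) = (wPerm D hnx l) ^ k := by
  induction k with
  | zero => simp [repL]
  | succ k ih =>
    rw [repL, wPerm_append, ih, pow_succ']

/-- the word `l` is the identity on the roots -/
def idT (n : ℕ) (R : List ℕ) (l : List ℕ) : Bool :=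
  allLt n fun r => Nat.beq (wActT R l r) r

theorem idT_iff (D : ChevalleyDatum) (hnx : NXAll D) (R : List ℕ) (hR : reflOK D R = true)
    (l : List ℕ) (hl : ∀ i ∈ l, i < D.rank) :
    idT D.nroots R l = true ↔ wPerm D hnx l = 1 := by
  unfold idT
  rw [allLt_spec, wPerm_eq_one_iff D hnx l hl]
  constructor
  · intro h r hr
    have := h r hr
    rw [nbeq_iff, wActT_eq D hnx R hR l hl r hr] at this
    exact this
  · intro h r hr
    rw [nbeq_iff, wActT_eq D hnx R hR l hl r hr]
    exact h r hr

/-- the word `l` has order `m` on the roots -/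
def ordWOK (n : ℕ) (R : List ℕ) (l : List ℕ) (m : ℕ) : Bool :=
  Nat.blt 0 m && idT n R (repL l m) &&
  allLt m (fun k => Nat.beq k 0 || !(idT n R (repL l k)))

theorem orderOf_wPerm_of (D : ChevalleyDatum) (hnx : NXAll D) (R : List ℕ)
    (hR : reflOK D R = true) (l : List ℕ) (hl : ∀ i ∈ l, i < D.rank) (m : ℕ)
    (h : ordWOK D.nroots R l m = true) : orderOf (wPerm D hnx l) = m := by
  unfold ordWOK at h
  simp only [Bool.and_eq_true, Nat.blt_eq, allLt_spec, Bool.or_eq_true, nbeq_iff,
    Bool.not_eq_true'] at h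
  obtain ⟨⟨hm, h1⟩, h2⟩ := h
  rw [orderOf_eq_iff hm]
  constructor
  · rw [← wPerm_repL]
    exact (idT_iff D hnx R hR _ (repL_lt l _ hl m)).mp h1
  · intro k hk hk0 hcon
    rw [← wPerm_repL] at hcon
    have := (idT_iff D hnx R hR _ (repL_lt l _ hl k)).mpr hcon
    rcases h2 k hk with h3 | h3
    · omega
    · rw [h3] at this
      exact absurd this (by simp)

/-- the order of the Coxeter element -/
theorem orderOf_coxeter_elt (D : ChevalleyDatum)
    (hD : D ∈ [chevG2, chevB2, chevD4, chevF4, chevE6, chevE7, chevE8]) (hnx : NXAll D)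
    (n : ℕ) (hn : D.rank = n) (M : CoxeterMatrix (Fin n))
    (hM : ∀ i j : Fin n, ordOK D i j (M i j) = true) (R : List ℕ) (hR : reflOK D R = true)
    (m : ℕ) (h : ordWOK D.nroots R ((List.finRange n).map Fin.val) m = true) :
    orderOf ((List.finRange n).map M.simple).prod = m := by
  have hl : ∀ i ∈ (List.finRange n).map Fin.val, i < D.rank := by
    intro i hi
    rw [List.mem_map] at hi
    obtain ⟨j, -, rfl⟩ := hi
    exact hn ▸ j.2
  have e : ((List.finRange n).map M.simple).prod =
      M.toCoxeterSystem.wordProd (List.finRange n) := by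
    unfold CoxeterSystem.wordProd
    rw [CoxeterMatrix.toCoxeterSystem_simple]
  rw [e, ← orderOf_injective _ (coxToPerm_injective D hD hnx n hn M hM), coxToPerm_wordProd]
  exact orderOf_wPerm_of D hnx R hR _ hl m h

theorem coxElt_G2 : ordWOK chevG2.nroots poinRG2 ((List.finRange 2).map Fin.val) 6 = true := by
  decide +kernel

theorem coxElt_B2 : ordWOK chevB2.nroots poinRB2 ((List.finRange 2).map Fin.val) 4 = true := by
  decide +kernel

theorem coxElt_D4 : ordWOK chevD4.nroots poinRD4 ((List.finRange 4).map Fin.val) 6 = true := by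
  decide +kernel

theorem coxElt_F4 : ordWOK chevF4.nroots poinRF4 ((List.finRange 4).map Fin.val) 12 = true := by
  decide +kernel

theorem coxElt_E6 : ordWOK chevE6.nroots poinRE6 ((List.finRange 6).map Fin.val) 12 = true := by
  decide +kernel

theorem coxElt_E7 : ordWOK chevE7.nroots poinRE7 ((List.finRange 7).map Fin.val) 18 = true := by
  decide +kernel

theorem coxElt_E8 : ordWOK chevE8.nroots poinRE8 ((List.finRange 8).map Fin.val) 30 = true := by
  decide +kernel

end Cfsg.Agent.Lib.helper11
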