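import Cfsg.Agent.Lib.helper11c.CoxOK
import Cfsg.Agent.S1043

/-! `N/H` is the Coxeter group of the type. -/

set_option autoImplicit false

namespace Cfsg.Agent.Lib.helper11

open Cfsg Cfsg.Lie
open Cfsg.Agent.Lib.helper2

theorem mono_to_cox {F : Type*} [Field F] (D : ChevalleyDatum)
    (hD : D ∈ [chevG2, chevB2, chevD4, chevF4, chevE6, chevE7, chevE8])
    (n : ℕ) (hn : D.rank = n) (M : CoxeterMatrix (Fin n))
    (hM : ∀ i j : Fin n, ordOK D i j (M i j) = true) :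
    ∃ φ : ↥(D.monomialSubgroup F) →* M.Group, Function.Surjective φ ∧
      φ.ker = (D.diagonalSubgroup F).subgroupOf (D.monomialSubgroup F) ∧
      ∀ (i : Fin n) (g : ↥(D.monomialSubgroup F)),
        ((g : GL D.Idx F) : Matrix D.Idx D.Idx F) = D.nMat F (D.simple i) 1 →
          φ g = M.simple i := by
  have ce := certs_of_mem F D hD
  obtain ⟨P, hP⟩ := exists_stdBN D hD ce
  obtain ⟨-, hNG, -⟩ := Cfsg.Agent.S1043.main0 (F := F) D hD ce.hnx ce.hc
  let ι : ↥(D.monomialSubgroup F) →* ↥P.N :=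
    { toFun := fun x => ⟨⟨x.1, hNG x.2⟩, (hP.memN _).mpr x.2⟩
      map_one' := rfl
      map_mul' := fun x y => rfl }
  let Φ : M.Group ≃* BN.W P := MulEquiv.ofBijective (coxToW D hD P hP n hn M ce hM)
    ⟨coxToW_injective D hD P hP n hn M ce hM, coxToW_surjective D hD P hP n hn M ce hM⟩
  have hΦ : ∀ x, Φ x = coxToW D hD P hP n hn M ce hM x := fun x => rfl
  refine ⟨Φ.symm.toMonoidHom.comp ((BN.π P).comp ι), ?_, ?_, ?_⟩
  · intro x
    obtain ⟨nN, hnN⟩ := BN.π_surj P (Φ x)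
    refine ⟨⟨(nN : ↥(D.group F)).1, (hP.memN _).mp nN.2⟩, ?_⟩
    show Φ.symm (BN.π P (ι ⟨_, _⟩)) = x
    have e : ι ⟨(nN : ↥(D.group F)).1, (hP.memN _).mp nN.2⟩ = nN := rfl
    rw [e, hnN, Φ.symm_apply_apply]
  · ext x
    rw [MonoidHom.mem_ker, Subgroup.mem_subgroupOf]
    show Φ.symm (BN.π P (ι x)) = 1 ↔ _
    rw [MulEquiv.map_eq_one_iff, BN.π_eq_one_iff, hP.memB]
    show (x : GL D.Idx F) ∈ D.borelSubgroup F ↔ (x : GL D.Idx F) ∈ D.diagonalSubgroup F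
    rw [← borel_inf_mono D hD ce.hnx ce.hc ce.htri]
    exact ⟨fun h => ⟨h, x.2⟩, fun h => h.1⟩
  · intro i g hg
    show Φ.symm (BN.π P (ι g)) = M.simple i
    rw [MulEquiv.symm_apply_eq, hΦ, coxToW_simple, σi_eq D hD P hP _ (hn ▸ i.2)]
    show BN.π P (ι g) = BN.π P ⟨sG D hD i.val, _⟩
    congr 1
    apply Subtype.ext
    apply Subtype.ext
    exact eq_nU D hD _ _ _ hg

end Cfsg.Agent.Lib.helper11
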