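import Cfsg.Agent.Lib.helper11c.Cox4

/-! The Coxeter groups are generated by the Coxeter element and one or two reflections. -/

set_option autoImplicit false

namespace Cfsg.Agent.Lib.helper11

open Cfsg Cfsg.Lie

/-- expansion of a code: `0` is the Coxeter element, `1` its inverse, `j + 2` the `j`-th
chosen reflection -/
def expandC (n : ℕ) (ts : List ℕ) : ℕ → List ℕ
  | 0 => List.range n
  | 1 => (List.range n).reverse
  | j + 2 => [ts.getD j 0]

def expandW (n : ℕ) (ts : List ℕ) : List ℕ → List ℕ
  | [] => []
  | c :: w => expandC n ts c ++ expandW n ts w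

/-- every fundamental reflection is a word in the Coxeter element and the chosen reflections -/
def genOK (N : ℕ) (R : List ℕ) (n : ℕ) (ts : List ℕ) (ws : List (List ℕ)) : Bool :=
  ts.all (fun a => Nat.blt a n) &&
  allLt n fun i =>
    (ws.getD i []).all (fun c => Nat.blt c (ts.length + 2)) &&
    idT N R (expandW n ts (ws.getD i []) ++ [i])

/-- the `i`-th simple reflection, or `1` -/
noncomputable def simpleN {n : ℕ} (M : CoxeterMatrix (Fin n)) (i : ℕ) : M.Group :=
  if h : i < n then M.simple ⟨i, h⟩ else 1

theorem simpleN_mul_self {n : ℕ} (M : CoxeterMatrix (Fin n)) (i : ℕ) :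
    simpleN M i * simpleN M i = 1 := by
  unfold simpleN
  split_ifs with h
  · have := M.toCoxeterSystem.simple_mul_simple_self ⟨i, h⟩
    rwa [CoxeterMatrix.toCoxeterSystem_simple] at this
  · simp

/-- the product in the Coxeter group of a word -/
noncomputable def gpL {n : ℕ} (M : CoxeterMatrix (Fin n)) (l : List ℕ) : M.Group :=
  (l.map (simpleN M)).prod

theorem gpL_nil {n : ℕ} (M : CoxeterMatrix (Fin n)) : gpL M [] = 1 := rfl

theorem gpL_cons {n : ℕ} (M : CoxeterMatrix (Fin n)) (i : ℕ) (l : List ℕ) :
    gpL M (i :: l) = simpleN M i * gpL M l := by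
  simp [gpL]

theorem gpL_append {n : ℕ} (M : CoxeterMatrix (Fin n)) (l l' : List ℕ) :
    gpL M (l ++ l') = gpL M l * gpL M l' := by
  simp [gpL]

theorem gpL_reverse {n : ℕ} (M : CoxeterMatrix (Fin n)) (l : List ℕ) :
    gpL M l.reverse = (gpL M l)⁻¹ := by
  induction l with
  | nil => simp [gpL]
  | cons i l ih =>
    rw [List.reverse_cons, gpL_append, ih, gpL_cons, gpL_nil, mul_one, gpL_cons, mul_inv_rev,
      inv_eq_of_mul_eq_one_left (simpleN_mul_self M i)]

theorem gpL_range {n : ℕ} (M : CoxeterMatrix (Fin n)) :
    gpL M (List.range n) = ((List.finRange n).map M.simple).prod := by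
  unfold gpL
  congr 1
  rw [← List.map_coe_finRange_eq_range, List.map_map]
  apply List.map_congr_left
  intro i _
  show simpleN M i.val = M.simple i
  unfold simpleN
  rw [dif_pos i.2]

section

variable (D : ChevalleyDatum)
  (hD : D ∈ [chevG2, chevB2, chevD4, chevF4, chevE6, chevE7, chevE8]) (hnx : NXAll D)
  (n : ℕ) (hn : D.rank = n) (M : CoxeterMatrix (Fin n))
  (hM : ∀ i j : Fin n, ordOK D i j (M i j) = true)

theorem coxToPerm_simpleN (i : ℕ) :
    coxToPerm D hnx n hn M hM (simpleN M i) = sP D hnx i := by
  unfold simpleN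
  split_ifs with h
  · exact coxToPerm_simple D hnx n hn M hM ⟨i, h⟩
  · rw [map_one]
    unfold sP
    rw [dif_neg (by omega)]

theorem coxToPerm_gpL (l : List ℕ) :
    coxToPerm D hnx n hn M hM (gpL M l) = wPerm D hnx l := by
  induction l with
  | nil => simp [gpL]
  | cons i l ih =>
    rw [gpL_cons, map_mul, ih, coxToPerm_simpleN, wPerm_cons]

include hD hnx hn hM in
theorem cox_gen_core (R : List ℕ) (hR : reflOK D R = true) (ts : List ℕ)
    (ws : List (List ℕ)) (hcert : genOK D.nroots R n ts ws = true) (K : Subgroup M.Group)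
    (hc : ((List.finRange n).map M.simple).prod ∈ K) (ht : ∀ j ∈ ts, simpleN M j ∈ K) :
    K = ⊤ := by
  unfold genOK at hcert
  simp only [Bool.and_eq_true, List.all_eq_true, Nat.blt_eq, allLt_spec] at hcert
  obtain ⟨hts, hws⟩ := hcert
  have hcode : ∀ c, c < ts.length + 2 → gpL M (expandC n ts c) ∈ K ∧
      ∀ x ∈ expandC n ts c, x < D.rank := by
    intro c hc'
    match c, hc' with
    | 0, _ =>
      refine ⟨?_, ?_⟩
      · show gpL M (List.range n) ∈ K
        rw [gpL_range]
        exact hc
      · intro x hx
        have : x ∈ List.range n := hx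
        rw [List.mem_range] at this
        omega
    | 1, _ =>
      refine ⟨?_, ?_⟩
      · show gpL M (List.range n).reverse ∈ K
        rw [gpL_reverse, gpL_range]
        exact K.inv_mem hc
      · intro x hx
        have : x ∈ (List.range n).reverse := hx
        rw [List.mem_reverse, List.mem_range] at this
        omega
    | j + 2, hj =>
      have hmem : ts.getD j 0 ∈ ts := by
        rw [List.getD_eq_getElem _ _ (by omega)]
        exact List.getElem_mem _
      refine ⟨?_, ?_⟩
      · show gpL M [ts.getD j 0] ∈ K
        rw [gpL_cons, gpL_nil, mul_one]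
        exact ht _ hmem
      · intro x hx
        have : x ∈ [ts.getD j 0] := hx
        rw [List.mem_singleton] at this
        have := hts _ hmem
        omega
  have hword : ∀ w : List ℕ, (∀ c ∈ w, c < ts.length + 2) →
      gpL M (expandW n ts w) ∈ K ∧ ∀ x ∈ expandW n ts w, x < D.rank := by
    intro w
    induction w with
    | nil =>
      intro _
      refine ⟨?_, ?_⟩
      · show gpL M [] ∈ K
        rw [gpL_nil]
        exact K.one_mem
      · intro x hx
        have : x ∈ ([] : List ℕ) := hx
        simp at this
    | cons c w ih =>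
      intro h
      obtain ⟨h1, h2⟩ := ih (fun c' hc' => h c' (List.mem_cons_of_mem _ hc'))
      obtain ⟨h3, h4⟩ := hcode c (h c List.mem_cons_self)
      refine ⟨?_, ?_⟩
      · show gpL M (expandC n ts c ++ expandW n ts w) ∈ K
        rw [gpL_append]
        exact K.mul_mem h3 h1
      · intro x hx
        have : x ∈ expandC n ts c ++ expandW n ts w := hx
        rw [List.mem_append] at this
        rcases this with h5 | h5
        · exact h4 x h5
        · exact h2 x h5
  rw [eq_top_iff, ← M.toCoxeterSystem.subgroup_closure_range_simple, Subgroup.closure_le]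
  rintro _ ⟨i, rfl⟩
  rw [CoxeterMatrix.toCoxeterSystem_simple]
  obtain ⟨h1, h2⟩ := hws i i.2
  obtain ⟨hK, hlt⟩ := hword _ h1
  have e : M.simple i = gpL M (expandW n ts (ws.getD i [])) := by
    apply coxToPerm_injective D hD hnx n hn M hM
    rw [coxToPerm_gpL, coxToPerm_simple]
    have hl' : ∀ x ∈ expandW n ts (ws.getD i []) ++ [i.val], x < D.rank := by
      intro x hx
      rw [List.mem_append, List.mem_singleton] at hx
      rcases hx with hx | hx
      · exact hlt x hx
      · rw [hx]
        exact hn ▸ i.2
    have h3 := (idT_iff D hnx R hR _ hl').mp h2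
    rw [wPerm_append, wPerm_cons, wPerm_nil, mul_one] at h3
    have := eq_inv_of_mul_eq_one_left h3
    rw [sP_inv] at this
    exact this.symm
  rw [e]
  exact hK

include hD hnx hn hM in
theorem cox_gen_one (R : List ℕ) (hR : reflOK D R = true) (a : Fin n) (ws : List (List ℕ))
    (hcert : genOK D.nroots R n [a.val] ws = true) :
    ∃ T : Finset M.Group, T.card = 1 ∧
      (∀ t ∈ T, ∃ (g : M.Group) (i : Fin n), t = g * M.simple i * g⁻¹) ∧
      Subgroup.closure (({((List.finRange n).map M.simple).prod} : Set M.Group) ∪ ↑T) = ⊤ := by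
  classical
  refine ⟨{M.simple a}, Finset.card_singleton _, ?_, ?_⟩
  · intro t ht
    rw [Finset.mem_singleton] at ht
    exact ⟨1, a, by rw [ht]; group⟩
  · apply cox_gen_core D hD hnx n hn M hM R hR [a.val] ws hcert
    · exact Subgroup.subset_closure (Or.inl rfl)
    · intro j hj
      rw [List.mem_singleton] at hj
      subst hj
      apply Subgroup.subset_closure
      right
      have : simpleN M a.val = M.simple a := by
        unfold simpleN
        rw [dif_pos a.2]
      rw [this]
      simp

include hD hnx hn hM in
theorem cox_gen_two (R : List ℕ) (hR : reflOK D R = true) (a b : Fin n) (hab : a ≠ b)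
    (ws : List (List ℕ)) (hcert : genOK D.nroots R n [a.val, b.val] ws = true) :
    ∃ T : Finset M.Group, T.card = 2 ∧
      (∀ t ∈ T, ∃ (g : M.Group) (i : Fin n), t = g * M.simple i * g⁻¹) ∧
      Subgroup.closure (({((List.finRange n).map M.simple).prod} : Set M.Group) ∪ ↑T) = ⊤ := by
  classical
  have hne : M.simple a ≠ M.simple b := by
    intro h
    have h1 := congrArg (coxToPerm D hnx n hn M hM) h
    rw [coxToPerm_simple, coxToPerm_simple] at h1
    have h2 := orderOf_sP_mul D hnx a b (M a b) (hn ▸ a.2) (hn ▸ b.2) (hM a b)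
    rw [h1, sP_mul_self, orderOf_one] at h2
    exact M.off_diagonal a b hab h2.symm
  refine ⟨{M.simple a, M.simple b}, Finset.card_pair hne, ?_, ?_⟩
  · intro t ht
    rw [Finset.mem_insert, Finset.mem_singleton] at ht
    rcases ht with ht | ht
    · exact ⟨1, a, by rw [ht]; group⟩
    · exact ⟨1, b, by rw [ht]; group⟩
  · apply cox_gen_core D hD hnx n hn M hM R hR [a.val, b.val] ws hcert
    · exact Subgroup.subset_closure (Or.inl rfl)
    · intro j hj
      rw [List.mem_cons, List.mem_singleton] at hj
      have ea : simpleN M a.val = M.simple a := by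
        unfold simpleN
        rw [dif_pos a.2]
      have eb : simpleN M b.val = M.simple b := by
        unfold simpleN
        rw [dif_pos b.2]
      apply Subgroup.subset_closure
      right
      rcases hj with rfl | rfl
      · rw [ea]
        simp
      · rw [eb]
        simp

end

end Cfsg.Agent.Lib.helper11
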