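import Cfsg.Agent.Lib.helper11c.Cox6
import Cfsg.Agent.Lib.helper11c.OrbOK

/-! The centre of the Coxeter groups of the seven types. -/

set_option autoImplicit false

namespace Cfsg.Agent.Lib.helper11

open Cfsg Cfsg.Lie
open Cfsg.Agent.Lib.helper2

section

variable (D : ChevalleyDatum) (hnx : NXAll D) (hpos : posOK D = true)

/-- `f` fixes the root `r` -/
def FixR (f : Equiv.Perm (Fin D.nroots)) (r : ℕ) : Prop :=
  ∀ hr : r < D.nroots, ((f ⟨r, hr⟩ : Fin D.nroots) : ℕ) = r

/-- `f` negates the root `r` -/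
def NegR (f : Equiv.Perm (Fin D.nroots)) (r : ℕ) : Prop :=
  ∀ hr : r < D.nroots, ((f ⟨r, hr⟩ : Fin D.nroots) : ℕ) = D.nroots - 1 - r

theorem comm_apply (f : Equiv.Perm (Fin D.nroots))
    (hcomm : ∀ i < D.rank, f * sP D hnx i = sP D hnx i * f) (i : ℕ) (hi : i < D.rank)
    (x : Fin D.nroots) : f (sP D hnx i x) = sP D hnx i (f x) := by
  have := congrArg (fun g : Equiv.Perm (Fin D.nroots) => g x) (hcomm i hi)
  simpa [Equiv.Perm.mul_apply] using this

theorem fixR_refl (f : Equiv.Perm (Fin D.nroots))
    (hcomm : ∀ i < D.rank, f * sP D hnx i = sP D hnx i * f) (i : ℕ) (hi : i < D.rank)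
    (s : ℕ) (hs : s < D.nroots) (h : FixR D f s) : FixR D f (D.reflectRoot i s) := by
  intro hr'
  have e1 : (⟨D.reflectRoot i s, hr'⟩ : Fin D.nroots) = sP D hnx i ⟨s, hs⟩ :=
    Fin.ext (sP_apply D hnx i hi ⟨s, hs⟩).symm
  have e2 : f ⟨s, hs⟩ = ⟨s, hs⟩ := Fin.ext (h hs)
  rw [e1, comm_apply D hnx f hcomm i hi, e2, sP_apply D hnx i hi]

include hpos in
theorem negR_refl (f : Equiv.Perm (Fin D.nroots))
    (hcomm : ∀ i < D.rank, f * sP D hnx i = sP D hnx i * f) (i : ℕ) (hi : i < D.rank)
    (s : ℕ) (hs : s < D.nroots) (h : NegR D f s) : NegR D f (D.reflectRoot i s) := by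
  intro hr'
  have e1 : (⟨D.reflectRoot i s, hr'⟩ : Fin D.nroots) = sP D hnx i ⟨s, hs⟩ :=
    Fin.ext (sP_apply D hnx i hi ⟨s, hs⟩).symm
  have e2 : f ⟨s, hs⟩ = Fin.rev ⟨s, hs⟩ := by
    apply Fin.ext
    rw [h hs, Fin.val_rev]
    show D.nroots - 1 - s = D.nroots - (s + 1)
    omega
  rw [e1, comm_apply D hnx f hcomm i hi, e2, (negComm_sP D hnx hpos i) ⟨s, hs⟩, Fin.val_rev,
    sP_apply D hnx i hi]
  show D.nroots - (D.reflectRoot i s + 1) = D.nroots - 1 - D.reflectRoot i s
  omega

/-- only `± p_i` is negated by the `i`-th reflection -/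
def negOK (D : ChevalleyDatum) : Bool :=
  allLt D.rank fun i => allLt D.nroots fun s =>
    decide (rr D i s = D.nroots - 1 - s → s = D.simple i ∨ s = D.nroots - 1 - D.simple i)

include hpos in
theorem fix_or_neg (hneg : negOK D = true) (hc : HCert D) (f : Equiv.Perm (Fin D.nroots))
    (hf : NegComm f) (hcomm : ∀ i < D.rank, f * sP D hnx i = sP D hnx i * f)
    (i : ℕ) (hi : i < D.rank) : FixR D f (D.simple i) ∨ NegR D f (D.simple i) := by
  have hlt := simple_lt D hc i hi
  unfold negOK at hneg
  simp only [allLt_spec, decide_eq_true_eq, rr_eq] at hneg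
  have e1 : sP D hnx i ⟨D.simple i, hlt⟩ = Fin.rev ⟨D.simple i, hlt⟩ := by
    apply Fin.ext
    rw [sP_apply D hnx i hi, Fin.val_rev]
    show D.reflectRoot i (D.simple i) = D.nroots - (D.simple i + 1)
    rw [refl_simple]
    have := (posOK_spec D hpos _ hlt).2.2
    omega
  have e4 : ((sP D hnx i (f ⟨D.simple i, hlt⟩) : Fin D.nroots) : ℕ) =
      D.nroots - 1 - (f ⟨D.simple i, hlt⟩).val := by
    rw [← comm_apply D hnx f hcomm i hi, e1, hf ⟨D.simple i, hlt⟩, Fin.val_rev]
    have := (f ⟨D.simple i, hlt⟩).2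
    omega
  rw [sP_apply D hnx i hi] at e4
  rcases hneg i hi (f ⟨D.simple i, hlt⟩).val (f ⟨D.simple i, hlt⟩).2 e4 with h | h
  · left
    intro _
    exact h
  · right
    intro _
    exact h

/-- `f` preserves the relation `a + b = c` on roots -/
def TripP (D : ChevalleyDatum) (f : Equiv.Perm (Fin D.nroots)) : Prop :=
  ∀ a b c : Fin D.nroots, D.chainRoot a b 1 = some c.val →
    D.chainRoot (f a) (f b) 1 = some (f c).val

/-- the fundamental reflections preserve the relation `a + b = c` -/
def tInvOK (D : ChevalleyDatum) : Bool :=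
  allLt D.rank fun i => allLt D.nroots fun a => allLt D.nroots fun b =>
    match D.chainRoot a b 1 with
    | some c => decide (D.chainRoot (rr D i a) (rr D i b) 1 = some (rr D i c))
    | none => true

theorem tripP_of_mem (hT : tInvOK D = true) (f : Equiv.Perm (Fin D.nroots))
    (hf : f ∈ Wk D hnx D.rank) : TripP D f := by
  unfold tInvOK at hT
  simp only [allLt_spec] at hT
  have hgen : ∀ i < D.rank, TripP D (sP D hnx i) := by
    intro i hi a b c habc
    have := hT i hi a.val a.2 b.val b.2
    rw [habc] at this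
    simp only [decide_eq_true_eq, rr_eq] at this
    rw [sP_apply D hnx i hi, sP_apply D hnx i hi, sP_apply D hnx i hi]
    exact this
  unfold Wk at hf
  induction hf using Subgroup.closure_induction'' with
  | mem x hx =>
    obtain ⟨i, hi, rfl⟩ := hx
    exact hgen i hi
  | inv_mem x hx =>
    obtain ⟨i, hi, rfl⟩ := hx
    rw [sP_inv]
    exact hgen i hi
  | one =>
    intro a b c h
    exact h
  | mul x y _ _ hx hy =>
    intro a b c h
    exact hx _ _ _ (hy a b c h)

include hpos in
/-- one root length: an element commuting with the fundamental reflections is `±1` -/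
theorem central_one (hD : D ∈ [chevG2, chevB2, chevD4, chevF4, chevE6, chevE7, chevE8])
    (hc : HCert D) (hneg : negOK D = true) (dd : List ℕ) (c0 : ℕ)
    (horb : orbOK D (fun _ => false) dd c0 c0 = true) (f : Equiv.Perm (Fin D.nroots))
    (hf : NegComm f) (hcomm : ∀ i < D.rank, f * sP D hnx i = sP D hnx i * f) :
    f = 1 ∨ ∀ r, f r = Fin.rev r := by
  have hw : ∀ i < D.rank, wOK D i = true := fun i hi => (hnx i hi).1
  have h0 := rank_pos D hD
  have hlt := simple_lt D hc 0 h0
  rcases fix_or_neg D hnx hpos hneg hc f hf hcomm 0 h0 with h | h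
  · left
    have key := orb_iff D hw _ dd c0 c0 horb (FixR D f)
      (fun i hi s hs hq => fixR_refl D hnx f hcomm i hi s hs hq)
    have hc0 : FixR D f c0 := by
      have := (key _ hlt).mp h
      simpa using this
    ext r
    have := (key r.val r.2).mpr (by simpa using hc0)
    exact this r.2
  · right
    have key := orb_iff D hw _ dd c0 c0 horb (NegR D f)
      (fun i hi s hs hq => negR_refl D hnx hpos f hcomm i hi s hs hq)
    have hc0 : NegR D f c0 := by
      have := (key _ hlt).mp h
      simpa using this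
    intro r
    have := (key r.val r.2).mpr (by simpa using hc0)
    apply Fin.ext
    rw [Fin.val_rev, this r.2]
    omega

include hpos in
/-- two root lengths: an element of `W` commuting with the fundamental reflections is `±1` -/
theorem central_two (hc : HCert D) (hneg : negOK D = true) (dd : List ℕ) (cS cL : ℕ)
    (horb : orbOK D D.isLong dd cS cL = true) (iS iL : ℕ) (hiS : iS < D.rank)
    (hiL : iL < D.rank) (hS : D.isLong (D.simple iS) = false)
    (hL : D.isLong (D.simple iL) = true) (hT : tInvOK D = true) (a b c : ℕ)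
    (ha : a < D.nroots) (hb : b < D.nroots) (hcn : c < D.nroots)
    (hla : D.isLong a = false) (hlb : D.isLong b = false) (hlc : D.isLong c = true)
    (habc : D.chainRoot a b 1 = some c)
    (hn1 : D.chainRoot (D.nroots - 1 - a) (D.nroots - 1 - b) 1 ≠ some c)
    (hn2 : c ≠ D.nroots - 1 - c) (f : Equiv.Perm (Fin D.nroots))
    (hf : f ∈ Wk D hnx D.rank) (hcomm : ∀ i < D.rank, f * sP D hnx i = sP D hnx i * f) :
    f = 1 ∨ ∀ r, f r = Fin.rev r := by
  have hw : ∀ i < D.rank, wOK D i = true := fun i hi => (hnx i hi).1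
  have hfn : NegComm f := wk_negComm D hnx hpos _ f hf
  have keyF := orb_iff D hw _ dd cS cL horb (FixR D f)
    (fun i hi s hs hq => fixR_refl D hnx f hcomm i hi s hs hq)
  have keyN := orb_iff D hw _ dd cS cL horb (NegR D f)
    (fun i hi s hs hq => negR_refl D hnx hpos f hcomm i hi s hs hq)
  have hltS := simple_lt D hc iS hiS
  have hltL := simple_lt D hc iL hiL
  have fS : FixR D f (D.simple iS) → ∀ r < D.nroots, D.isLong r = false → FixR D f r := by
    intro h r hr hl
    have h1 := (keyF _ hltS).mp h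
    rw [hS] at h1
    rw [keyF r hr, hl]
    exact h1
  have fL : FixR D f (D.simple iL) → ∀ r < D.nroots, D.isLong r = true → FixR D f r := by
    intro h r hr hl
    have h1 := (keyF _ hltL).mp h
    rw [hL] at h1
    rw [keyF r hr, hl]
    exact h1
  have nS : NegR D f (D.simple iS) → ∀ r < D.nroots, D.isLong r = false → NegR D f r := by
    intro h r hr hl
    have h1 := (keyN _ hltS).mp h
    rw [hS] at h1
    rw [keyN r hr, hl]
    exact h1
  have nL : NegR D f (D.simple iL) → ∀ r < D.nroots, D.isLong r = true → NegR D f r := by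
    intro h r hr hl
    have h1 := (keyN _ hltL).mp h
    rw [hL] at h1
    rw [keyN r hr, hl]
    exact h1
  have htp := tripP_of_mem D hnx hT f hf ⟨a, ha⟩ ⟨b, hb⟩ ⟨c, hcn⟩ habc
  rcases fix_or_neg D hnx hpos hneg hc f hfn hcomm iS hiS with h1 | h1 <;>
    rcases fix_or_neg D hnx hpos hneg hc f hfn hcomm iL hiL with h2 | h2
  · left
    ext r
    by_cases hl : D.isLong r.val = true
    · exact fL h2 r.val r.2 hl r.2
    · exact fS h1 r.val r.2 (by simpa using hl) r.2
  · exfalso
    rw [fS h1 a ha hla ha, fS h1 b hb hlb hb, nL h2 c hcn hlc hcn, habc] at htp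
    exact hn2 (Option.some.inj htp)
  · exfalso
    rw [nS h1 a ha hla ha, nS h1 b hb hlb hb, fL h2 c hcn hlc hcn] at htp
    exact hn1 htp
  · right
    intro r
    apply Fin.ext
    rw [Fin.val_rev]
    by_cases hl : D.isLong r.val = true
    · rw [nL h2 r.val r.2 hl r.2]
      omega
    · rw [nS h1 r.val r.2 (by simpa using hl) r.2]
      omega

/-- an element of `W` whose inverse maps the fundamental roots to positive roots is trivial -/
theorem wk_eq_one_of_pos (hD : D ∈ [chevG2, chevB2, chevD4, chevF4, chevE6, chevE7, chevE8])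
    (u : Equiv.Perm (Fin D.nroots)) (hu : u ∈ Wk D hnx D.rank) (hc : HCert D)
    (h : ∀ i (hi : i < D.rank),
      D.nroots ≤ 2 * ((u⁻¹ ⟨D.simple i, simple_lt D hc i hi⟩ : Fin D.nroots) : ℕ)) : u = 1 := by
  by_contra hne
  obtain ⟨l, hl, rfl⟩ := exists_word_of_mem_Wk D hnx u hu
  have ce := certs_of_mem ℚ D hD
  obtain ⟨P, hP⟩ := exists_stdBN D hD ce
  have hw : wOf D hD P hP l ≠ 1 := by
    intro h1
    exact hne ((wOf_eq_one_iff D hD P hP ce l hl).mp h1)
  obtain ⟨L, hL, hLlen⟩ := BN.exists_reduced P (wOf D hD P hP l)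
  have hred : BN.Red P L := by
    unfold BN.Red
    rw [hL, hLlen]
  match L, hL, hred with
  | [], hL, _ => exact hw (by rw [← hL]; rfl)
  | s :: L', hL, hred =>
    have hQ := hred.Q_head
    rw [hL] at hQ
    obtain ⟨i, hi, hs⟩ := exists_of_mem_S hD hP s.1 s.2
    have hs' : s = ⟨sG D hD i, sG_mem_S hD hP i hi⟩ := Subtype.ext hs
    rw [hs'] at hQ
    have hr₀ : wAct D l ((wPerm D hnx l)⁻¹ ⟨D.simple i, simple_lt D hc i hi⟩ : Fin D.nroots) =
        D.simple i := by
      rw [← wPerm_apply D hnx l hl]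
      simp
    have h1 := Q_imp_neg D hD P hP ce l hl i hi _ hr₀ hQ
    have h2 := h i hi
    omega

end

section

variable (D : ChevalleyDatum)
  (hD : D ∈ [chevG2, chevB2, chevD4, chevF4, chevE6, chevE7, chevE8]) (hnx : NXAll D)
  (n : ℕ) (hn : D.rank = n) (M : CoxeterMatrix (Fin n))
  (hM : ∀ i j : Fin n, ordOK D i j (M i j) = true)

include hD hnx hn hM in
theorem center_class_to_group
    (hclass : ∀ f ∈ Wk D hnx D.rank, (∀ i < D.rank, f * sP D hnx i = sP D hnx i * f) →
      f = 1 ∨ ∀ r, f r = Fin.rev r) (z : M.Group) (hz : z ∈ Subgroup.center M.Group) :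
    z = 1 ∨ ∀ r, coxToPerm D hnx n hn M hM z r = Fin.rev r := by
  have h := hclass (coxToPerm D hnx n hn M hM z)
    (by rw [← coxToPerm_range D hnx n hn M hM]; exact ⟨z, rfl⟩) (by
      intro i hi
      rw [← coxToPerm_simple D hnx n hn M hM ⟨i, hn ▸ hi⟩, ← map_mul, ← map_mul]
      congr 1
      exact (Subgroup.mem_center_iff.mp hz (M.simple ⟨i, hn ▸ hi⟩)).symm)
  rcases h with h | h
  · left
    exact (injective_iff_map_eq_one _).mp (coxToPerm_injective D hD hnx n hn M hM) z h
  · right
    exact h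

/-- the word negates every root -/
def negT (N : ℕ) (R : List ℕ) (l : List ℕ) : Bool :=
  allLt N fun r => Nat.beq (wActT R l r) (N - 1 - r)

include hD hnx hn hM in
theorem center_two (hpos : posOK D = true)
    (hclass : ∀ f ∈ Wk D hnx D.rank, (∀ i < D.rank, f * sP D hnx i = sP D hnx i * f) →
      f = 1 ∨ ∀ r, f r = Fin.rev r) (R : List ℕ) (hR : reflOK D R = true) (m : ℕ)
    (hm : negT D.nroots R (repL ((List.finRange n).map Fin.val) m) = true)
    (hN : 2 ≤ D.nroots) :
    Nat.card (Subgroup.center M.Group) = 2 ∧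
      Subgroup.center M.Group ≤ Subgroup.zpowers ((List.finRange n).map M.simple).prod := by
  have hl : ∀ i ∈ (List.finRange n).map Fin.val, i < D.rank := by
    intro i hi
    rw [List.mem_map] at hi
    obtain ⟨j, -, rfl⟩ := hi
    exact hn ▸ j.2
  have e : ((List.finRange n).map M.simple).prod =
      M.toCoxeterSystem.wordProd (List.finRange n) := by
    unfold CoxeterSystem.wordProd
    rw [CoxeterMatrix.toCoxeterSystem_simple]
  unfold negT at hm
  simp only [allLt_spec, nbeq_iff] at hm
  have hρ0 : ∀ r, coxToPerm D hnx n hn M hM (((List.finRange n).map M.simple).prod ^ m) r =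
      Fin.rev r := by
    intro r
    rw [map_pow, e, coxToPerm_wordProd, ← wPerm_repL]
    apply Fin.ext
    rw [wPerm_apply D hnx _ (repL_lt _ _ hl m), Fin.val_rev,
      ← wActT_eq D hnx R hR _ (repL_lt _ _ hl m) r r.2, hm r r.2]
    omega
  have hz0c : ((List.finRange n).map M.simple).prod ^ m ∈ Subgroup.center M.Group := by
    rw [Subgroup.mem_center_iff]
    intro x
    apply coxToPerm_injective D hD hnx n hn M hM
    rw [map_mul, map_mul]
    ext r
    have hx : coxToPerm D hnx n hn M hM x ∈ Wk D hnx D.rank := by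
      rw [← coxToPerm_range D hnx n hn M hM]
      exact ⟨x, rfl⟩
    rw [Equiv.Perm.mul_apply, Equiv.Perm.mul_apply, hρ0, hρ0,
      wk_negComm D hnx hpos _ _ hx r]
  have hz0ne : ((List.finRange n).map M.simple).prod ^ m ≠ 1 := by
    intro h1
    have h2 := hρ0 ⟨0, by omega⟩
    rw [h1, map_one] at h2
    have h3 := congrArg Fin.val h2
    rw [Fin.val_rev] at h3
    simp at h3
    omega
  have hall : ∀ z ∈ Subgroup.center M.Group,
      z = 1 ∨ z = ((List.finRange n).map M.simple).prod ^ m := by
    intro z hz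
    rcases center_class_to_group D hD hnx n hn M hM hclass z hz with h1 | h1
    · left
      exact h1
    · right
      apply coxToPerm_injective D hD hnx n hn M hM
      ext r
      rw [h1, hρ0]
  constructor
  · rw [Nat.card_eq_two_iff]
    refine ⟨⟨1, one_mem _⟩, ⟨_, hz0c⟩, ?_, ?_⟩
    · intro h
      exact hz0ne (congrArg Subtype.val h).symm
    · ext ⟨z, hz⟩
      simp only [Set.mem_insert_iff, Set.mem_singleton_iff, Set.mem_univ, iff_true]
      rcases hall z hz with h | h
      · left
        exact Subtype.ext h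
      · right
        exact Subtype.ext h
  · intro z hz
    rcases hall z hz with rfl | rfl
    · exact one_mem _
    · exact Subgroup.pow_mem _ (Subgroup.mem_zpowers _) m

/-- the word maps the fundamental roots to negatives of fundamental roots, not always to the
negative of the same root -/
def w0negOK (N : ℕ) (R : List ℕ) (n : ℕ) (sm : ℕ → ℕ) (w : List ℕ) : Bool :=
  w.all (fun i => Nat.blt i n) &&
  (allLt n fun j => (List.range n).any fun k => Nat.beq (wActT R w (sm j)) (N - 1 - sm k)) &&
  (List.range n).any fun j => decide (wActT R w (sm j) ≠ N - 1 - sm j)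

include hD hnx hn hM in
theorem center_one (hpos : posOK D = true) (hc : HCert D)
    (hclass : ∀ f ∈ Wk D hnx D.rank, (∀ i < D.rank, f * sP D hnx i = sP D hnx i * f) →
      f = 1 ∨ ∀ r, f r = Fin.rev r) (R : List ℕ) (hR : reflOK D R = true) (w : List ℕ)
    (hw : w0negOK D.nroots R D.rank D.simple w = true) :
    Nat.card (Subgroup.center M.Group) = 1 ∧
      Subgroup.center M.Group ≤ Subgroup.zpowers ((List.finRange n).map M.simple).prod := by
  unfold w0negOK at hw
  simp only [Bool.and_eq_true, List.all_eq_true, Nat.blt_eq, allLt_spec, List.any_eq_true,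
    List.mem_range, nbeq_iff, decide_eq_true_eq] at hw
  obtain ⟨⟨hwl, hw1⟩, j, hj, hw2⟩ := hw
  have hbot : Subgroup.center M.Group = ⊥ := by
    rw [eq_bot_iff]
    intro z hz
    rw [Subgroup.mem_bot]
    rcases center_class_to_group D hD hnx n hn M hM hclass z hz with h1 | h1
    · exact h1
    · exfalso
      have hfW : coxToPerm D hnx n hn M hM z ∈ Wk D hnx D.rank := by
        rw [← coxToPerm_range D hnx n hn M hM]
        exact ⟨z, rfl⟩
      have hgW : wPerm D hnx w ∈ Wk D hnx D.rank := wPerm_mem_Wk D hnx w hwl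
      have hg : ∀ i (hi : i < D.rank), ((wPerm D hnx w ⟨D.simple i, simple_lt D hc i hi⟩ :
          Fin D.nroots) : ℕ) = wActT R w (D.simple i) := by
        intro i hi
        rw [wPerm_apply D hnx w hwl, wActT_eq D hnx R hR w hwl _ (simple_lt D hc i hi)]
      have hu : (wPerm D hnx w)⁻¹ * coxToPerm D hnx n hn M hM z = 1 := by
        apply wk_eq_one_of_pos D hnx hD _ (mul_mem (inv_mem hgW) hfW) hc
        intro i hi
        obtain ⟨k, hk, hgk⟩ := hw1 i hi
        have e1 : wPerm D hnx w ⟨D.simple i, simple_lt D hc i hi⟩ =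
            Fin.rev ⟨D.simple k, simple_lt D hc k hk⟩ := by
          apply Fin.ext
          rw [hg i hi, Fin.val_rev, hgk]
          show D.nroots - 1 - D.simple k = D.nroots - (D.simple k + 1)
          omega
        have e2 : (coxToPerm D hnx n hn M hM z)⁻¹ (Fin.rev ⟨D.simple k, simple_lt D hc k hk⟩) =
            ⟨D.simple k, simple_lt D hc k hk⟩ := by
          rw [← h1 ⟨D.simple k, simple_lt D hc k hk⟩]
          simp
        have e3 : ((wPerm D hnx w)⁻¹ * coxToPerm D hnx n hn M hM z)⁻¹
            ⟨D.simple i, simple_lt D hc i hi⟩ = ⟨D.simple k, simple_lt D hc k hk⟩ := by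
          rw [mul_inv_rev, inv_inv, Equiv.Perm.mul_apply, e1, e2]
        rw [e3]
        exact (posOK_spec D hpos _ (simple_lt D hc k hk)).1.mp (hc.2 k hk).2
      have hfg : coxToPerm D hnx n hn M hM z = wPerm D hnx w := by
        rw [inv_mul_eq_one] at hu
        exact hu.symm
      have h3 := h1 ⟨D.simple j, simple_lt D hc j hj⟩
      rw [hfg] at h3
      have h4 := congrArg Fin.val h3
      rw [hg j hj, Fin.val_rev] at h4
      apply hw2
      rw [h4]
      show D.nroots - (D.simple j + 1) = D.nroots - 1 - D.simple j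
      omega
  rw [hbot]
  exact ⟨Subgroup.card_bot, bot_le⟩

end

end Cfsg.Agent.Lib.helper11
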