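import Cfsg.Agent.Lib.helper11c.Cox7

/-! Certificates and the centres of the Coxeter groups of the seven types. -/

set_option autoImplicit false

namespace Cfsg.Agent.Lib.helper11

open Cfsg Cfsg.Lie

theorem negOK_G2 : negOK chevG2 = true := by decide +kernel

theorem negOK_B2 : negOK chevB2 = true := by decide +kernel

theorem negOK_D4 : negOK chevD4 = true := by decide +kernel

theorem negOK_F4 : negOK chevF4 = true := by decide +kernel

theorem negOK_E6 : negOK chevE6 = true := by decide +kernel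

theorem negOK_E7 : negOK chevE7 = true := by decide +kernel

theorem negOK_E8 : negOK chevE8 = true := by decide +kernel

theorem tInvOK_G2 : tInvOK chevG2 = true := by decide +kernel

theorem tInvOK_B2 : tInvOK chevB2 = true := by decide +kernel

theorem tInvOK_F4 : tInvOK chevF4 = true := by decide +kernel

theorem negT_G2 : negT chevG2.nroots poinRG2 (repL ((List.finRange 2).map Fin.val) 3) = true := by
  decide +kernel

theorem negT_B2 : negT chevB2.nroots poinRB2 (repL ((List.finRange 2).map Fin.val) 2) = true := by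
  decide +kernel

theorem negT_D4 : negT chevD4.nroots poinRD4 (repL ((List.finRange 4).map Fin.val) 3) = true := by
  decide +kernel

theorem negT_F4 : negT chevF4.nroots poinRF4 (repL ((List.finRange 4).map Fin.val) 6) = true := by
  decide +kernel

theorem negT_E7 : negT chevE7.nroots poinRE7 (repL ((List.finRange 7).map Fin.val) 9) = true := by
  decide +kernel

theorem negT_E8 : negT chevE8.nroots poinRE8 (repL ((List.finRange 8).map Fin.val) 15) = true := by
  decide +kernel

theorem w0neg_E6 : w0negOK chevE6.nroots poinRE6 chevE6.rank chevE6.simple w0E6 = true := by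
  decide +kernel

theorem class_D4 (hnx : NXAll chevD4) : ∀ f ∈ Wk chevD4 hnx chevD4.rank,
    (∀ i < chevD4.rank, f * sP chevD4 hnx i = sP chevD4 hnx i * f) →
      f = 1 ∨ ∀ r, f r = Fin.rev r := by
  intro f hf hcomm
  have hpos := posOK_of_mem chevD4 (by simp)
  exact central_one chevD4 hnx hpos (by simp) (hcert_of_mem chevD4 (by simp)) negOK_D4
    orbDDD4 18 orbOK_D4 f (wk_negComm chevD4 hnx hpos _ f hf) hcomm

theorem class_E6 (hnx : NXAll chevE6) : ∀ f ∈ Wk chevE6 hnx chevE6.rank,
    (∀ i < chevE6.rank, f * sP chevE6 hnx i = sP chevE6 hnx i * f) →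
      f = 1 ∨ ∀ r, f r = Fin.rev r := by
  intro f hf hcomm
  have hpos := posOK_of_mem chevE6 (by simp)
  exact central_one chevE6 hnx hpos (by simp) (hcert_of_mem chevE6 (by simp)) negOK_E6
    orbDDE6 56 orbOK_E6 f (wk_negComm chevE6 hnx hpos _ f hf) hcomm

theorem class_E7 (hnx : NXAll chevE7) : ∀ f ∈ Wk chevE7 hnx chevE7.rank,
    (∀ i < chevE7.rank, f * sP chevE7 hnx i = sP chevE7 hnx i * f) →
      f = 1 ∨ ∀ r, f r = Fin.rev r := by
  intro f hf hcomm
  have hpos := posOK_of_mem chevE7 (by simp)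
  exact central_one chevE7 hnx hpos (by simp) (hcert_of_mem chevE7 (by simp)) negOK_E7
    orbDDE7 93 orbOK_E7 f (wk_negComm chevE7 hnx hpos _ f hf) hcomm

theorem class_E8 (hnx : NXAll chevE8) : ∀ f ∈ Wk chevE8 hnx chevE8.rank,
    (∀ i < chevE8.rank, f * sP chevE8 hnx i = sP chevE8 hnx i * f) →
      f = 1 ∨ ∀ r, f r = Fin.rev r := by
  intro f hf hcomm
  have hpos := posOK_of_mem chevE8 (by simp)
  exact central_one chevE8 hnx hpos (by simp) (hcert_of_mem chevE8 (by simp)) negOK_E8
    orbDDE8 162 orbOK_E8 f (wk_negComm chevE8 hnx hpos _ f hf) hcomm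

theorem class_G2 (hnx : NXAll chevG2) : ∀ f ∈ Wk chevG2 hnx chevG2.rank,
    (∀ i < chevG2.rank, f * sP chevG2 hnx i = sP chevG2 hnx i * f) →
      f = 1 ∨ ∀ r, f r = Fin.rev r := by
  intro f hf hcomm
  have hpos := posOK_of_mem chevG2 (by simp)
  exact central_two chevG2 hnx hpos (hcert_of_mem chevG2 (by simp)) negOK_G2
    orbDDG2 7 6 orbOK_G2 0 1 (by decide) (by decide) (by decide) (by decide)
    tInvOK_G2 2 3 0 (by decide) (by decide) (by decide) (by decide) (by decide)
    (by decide) (by decide) (by decide) (by decide) f hf hcomm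

theorem class_B2 (hnx : NXAll chevB2) : ∀ f ∈ Wk chevB2 hnx chevB2.rank,
    (∀ i < chevB2.rank, f * sP chevB2 hnx i = sP chevB2 hnx i * f) →
      f = 1 ∨ ∀ r, f r = Fin.rev r := by
  intro f hf hcomm
  have hpos := posOK_of_mem chevB2 (by simp)
  exact central_two chevB2 hnx hpos (hcert_of_mem chevB2 (by simp)) negOK_B2
    orbDDB2 5 4 orbOK_B2 0 1 (by decide) (by decide) (by decide) (by decide)
    tInvOK_B2 1 2 0 (by decide) (by decide) (by decide) (by decide) (by decide)
    (by decide) (by decide) (by decide) (by decide) f hf hcomm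

theorem class_F4 (hnx : NXAll chevF4) : ∀ f ∈ Wk chevF4 hnx chevF4.rank,
    (∀ i < chevF4.rank, f * sP chevF4 hnx i = sP chevF4 hnx i * f) →
      f = 1 ∨ ∀ r, f r = Fin.rev r := by
  intro f hf hcomm
  have hpos := posOK_of_mem chevF4 (by simp)
  exact central_two chevF4 hnx hpos (hcert_of_mem chevF4 (by simp)) negOK_F4
    orbDDF4 33 25 orbOK_F4 0 2 (by decide) (by decide) (by decide) (by decide)
    tInvOK_F4 3 18 0 (by decide) (by decide) (by decide) (by decide) (by decide)
    (by decide) (by decide) (by decide) (by decide) f hf hcomm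

theorem center_G2 : Nat.card (Subgroup.center CoxeterMatrix.G₂.Group) = 2 ∧
    Subgroup.center CoxeterMatrix.G₂.Group ≤
      Subgroup.zpowers ((List.finRange 2).map CoxeterMatrix.G₂.simple).prod :=
  center_two chevG2 (by simp) (nxAll_of_mem chevG2 (by simp)) 2 rfl CoxeterMatrix.G₂ coxOK_G2
    (posOK_of_mem chevG2 (by simp)) (class_G2 _) poinRG2 poinRG2_ok 3 negT_G2
    (by decide)

theorem center_B2 : Nat.card (Subgroup.center (CoxeterMatrix.B 2).Group) = 2 ∧
    Subgroup.center (CoxeterMatrix.B 2).Group ≤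
      Subgroup.zpowers ((List.finRange 2).map (CoxeterMatrix.B 2).simple).prod :=
  center_two chevB2 (by simp) (nxAll_of_mem chevB2 (by simp)) 2 rfl (CoxeterMatrix.B 2) coxOK_B2
    (posOK_of_mem chevB2 (by simp)) (class_B2 _) poinRB2 poinRB2_ok 2 negT_B2
    (by decide)

theorem center_D4 : Nat.card (Subgroup.center Cfsg.Lie.coxeterD4.Group) = 2 ∧
    Subgroup.center Cfsg.Lie.coxeterD4.Group ≤
      Subgroup.zpowers ((List.finRange 4).map Cfsg.Lie.coxeterD4.simple).prod :=
  center_two chevD4 (by simp) (nxAll_of_mem chevD4 (by simp)) 4 rfl Cfsg.Lie.coxeterD4 coxOK_D4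
    (posOK_of_mem chevD4 (by simp)) (class_D4 _) poinRD4 poinRD4_ok 3 negT_D4
    (by decide)

theorem center_F4 : Nat.card (Subgroup.center CoxeterMatrix.F₄.Group) = 2 ∧
    Subgroup.center CoxeterMatrix.F₄.Group ≤
      Subgroup.zpowers ((List.finRange 4).map CoxeterMatrix.F₄.simple).prod :=
  center_two chevF4 (by simp) (nxAll_of_mem chevF4 (by simp)) 4 rfl CoxeterMatrix.F₄ coxOK_F4
    (posOK_of_mem chevF4 (by simp)) (class_F4 _) poinRF4 poinRF4_ok 6 negT_F4
    (by decide)

theorem center_E7 : Nat.card (Subgroup.center CoxeterMatrix.E₇.Group) = 2 ∧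
    Subgroup.center CoxeterMatrix.E₇.Group ≤
      Subgroup.zpowers ((List.finRange 7).map CoxeterMatrix.E₇.simple).prod :=
  center_two chevE7 (by simp) (nxAll_of_mem chevE7 (by simp)) 7 rfl CoxeterMatrix.E₇ coxOK_E7
    (posOK_of_mem chevE7 (by simp)) (class_E7 _) poinRE7 poinRE7_ok 9 negT_E7
    (by decide)

theorem center_E8 : Nat.card (Subgroup.center CoxeterMatrix.E₈.Group) = 2 ∧
    Subgroup.center CoxeterMatrix.E₈.Group ≤
      Subgroup.zpowers ((List.finRange 8).map CoxeterMatrix.E₈.simple).prod :=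
  center_two chevE8 (by simp) (nxAll_of_mem chevE8 (by simp)) 8 rfl CoxeterMatrix.E₈ coxOK_E8
    (posOK_of_mem chevE8 (by simp)) (class_E8 _) poinRE8 poinRE8_ok 15 negT_E8
    (by decide)

theorem center_E6 : Nat.card (Subgroup.center CoxeterMatrix.E₆.Group) = 1 ∧
    Subgroup.center CoxeterMatrix.E₆.Group ≤
      Subgroup.zpowers ((List.finRange 6).map CoxeterMatrix.E₆.simple).prod :=
  center_one chevE6 (by simp) (nxAll_of_mem chevE6 (by simp)) 6 rfl CoxeterMatrix.E₆ coxOK_E6
    (posOK_of_mem chevE6 (by simp)) (hcert_of_mem chevE6 (by simp)) (class_E6 _) poinRE6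
    poinRE6_ok w0E6 w0neg_E6

end Cfsg.Agent.Lib.helper11
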