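import Cfsg.Agent.Lib.helper11c.Cox6

/-! Certificates: words in the Coxeter element and one or two fundamental reflections for every
fundamental reflection. -/

set_option autoImplicit false

namespace Cfsg.Agent.Lib.helper11

open Cfsg Cfsg.Lie

def coxGenWG2 : List (List ℕ) := [[2], [2, 0]]

theorem coxGen_G2 : genOK chevG2.nroots poinRG2 2 [0] coxGenWG2 = true := by
  decide +kernel

def coxGenWB2 : List (List ℕ) := [[2], [2, 0]]

theorem coxGen_B2 : genOK chevB2.nroots poinRB2 2 [0] coxGenWB2 = true := by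
  decide +kernel

def coxGenWD4 : List (List ℕ) := [[1, 2, 0], [2], [3], [2, 1, 3, 0, 2]]

theorem coxGen_D4 : genOK chevD4.nroots poinRD4 4 [1, 2] coxGenWD4 = true := by
  decide +kernel

def coxGenWF4 : List (List ℕ) := [[2], [0, 2, 1], [3], [0, 3, 1]]

theorem coxGen_F4 : genOK chevF4.nroots poinRF4 4 [0, 2] coxGenWF4 = true := by
  decide +kernel

def coxGenWE6 : List (List ℕ) := [[1, 1, 1, 1, 1, 2, 0, 0, 0, 0, 0], [2, 1, 1, 1, 2, 0, 0, 0, 2], [1, 1, 1, 1, 2, 0, 0, 0, 0], [2], [0, 2, 1], [0, 0, 2, 1, 1]]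

theorem coxGen_E6 : genOK chevE6.nroots poinRE6 6 [3] coxGenWE6 = true := by
  decide +kernel

def coxGenWE7 : List (List ℕ) := [[1, 2, 0, 0, 0, 0, 0, 2, 1, 1, 1, 1, 1, 2, 0], [2, 0, 2, 1, 1, 1, 1, 2, 0, 0, 0, 0, 2, 1, 2], [2, 1, 1, 1, 1, 2, 0, 0, 0, 0, 2], [2], [0, 2, 1], [0, 0, 2, 1, 1], [0, 0, 0, 2, 1, 1, 1]]

theorem coxGen_E7 : genOK chevE7.nroots poinRE7 7 [3] coxGenWE7 = true := by
  decide +kernel

def coxGenWE8 : List (List ℕ) := [[1, 1, 2, 0, 0, 0, 0, 0, 0, 2, 1, 1, 1, 1, 1, 1, 2, 0, 0], [1, 2, 0, 2, 0, 0, 0, 0, 0, 0, 2, 1, 1, 1, 1, 1, 1, 2, 1, 2, 0], [1, 2, 0, 0, 0, 0, 0, 0, 2, 1, 1, 1, 1, 1, 1, 2, 0], [1, 2, 0], [2], [0, 2, 1], [0, 0, 2, 1, 1], [0, 0, 0, 2, 1, 1, 1]]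

theorem coxGen_E8 : genOK chevE8.nroots poinRE8 8 [4] coxGenWE8 = true := by
  decide +kernel

end Cfsg.Agent.Lib.helper11
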