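import Cfsg.Agent.Lib.helper11c.Cox2

/-! Certificates: the orders of the products of two fundamental reflections are the entries of
the Coxeter matrices. -/

set_option autoImplicit false

namespace Cfsg.Agent.Lib.helper11

open Cfsg Cfsg.Lie

theorem coxOK_G2 : ∀ i j : Fin 2, ordOK chevG2 i j (CoxeterMatrix.G₂ i j) = true := by
  decide +kernel

theorem coxOK_B2 : ∀ i j : Fin 2, ordOK chevB2 i j (CoxeterMatrix.B 2 i j) = true := by
  decide +kernel

theorem coxOK_D4 : ∀ i j : Fin 4, ordOK chevD4 i j (Cfsg.Lie.coxeterD4 i j) = true := by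
  decide +kernel

theorem coxOK_F4 : ∀ i j : Fin 4, ordOK chevF4 i j (CoxeterMatrix.F₄ i j) = true := by
  decide +kernel

theorem coxOK_E6 : ∀ i j : Fin 6, ordOK chevE6 i j (CoxeterMatrix.E₆ i j) = true := by
  decide +kernel

theorem coxOK_E7 : ∀ i j : Fin 7, ordOK chevE7 i j (CoxeterMatrix.E₇ i j) = true := by
  decide +kernel

theorem coxOK_E8 : ∀ i j : Fin 8, ordOK chevE8 i j (CoxeterMatrix.E₈ i j) = true := by
  decide +kernel

end Cfsg.Agent.Lib.helper11
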