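import Cfsg.Agent.Lib.helper11c.Conj1
import Cfsg.Agent.S2157

/-! An element of `G` that is the diagonal matrix of a root character lies in `H`. -/

set_option autoImplicit false

namespace Cfsg.Agent.Lib.helper11

open Cfsg Cfsg.Lie
open Cfsg.Agent.Lib.helper2
open scoped Pointwise

theorem charDiag_conj_xU {F : Type*} [Field F] (D : ChevalleyDatum)
    (hD : D ∈ [chevG2, chevB2, chevD4, chevF4, chevE6, chevE7, chevE8]) (χ : ℕ → Fˣ)
    (hχ : D.IsRootCharacter χ) (g : GL D.Idx F)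
    (hgχ : (g : Matrix D.Idx D.Idx F) = D.charDiag F χ) (r : ℕ) (hr : r < D.nroots) (t : F) :
    g * xU D hD r t * g⁻¹ = xU D hD r ((χ r : F) * t) := by
  have hinv : ((g⁻¹ : GL D.Idx F) : Matrix D.Idx D.Idx F) = D.charDiag F (fun s => (χ s)⁻¹) := by
    have h1 : D.charDiag F (fun s => (χ s)⁻¹) * (g : Matrix D.Idx D.Idx F) = 1 := by
      rw [hgχ]
      exact charDiag_mul_inv D χ
    have h2 : ((g⁻¹ : GL D.Idx F) : Matrix D.Idx D.Idx F) =
        D.charDiag F (fun s => (χ s)⁻¹) *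
          ((g : Matrix D.Idx D.Idx F) * ((g⁻¹ : GL D.Idx F) : Matrix D.Idx D.Idx F)) := by
      rw [← mul_assoc, h1, one_mul]
    rw [h2, ← Units.val_mul, mul_inv_cancel, Units.val_one, mul_one]
  apply Units.ext
  rw [Units.val_mul, Units.val_mul, hinv, hgχ, xU_val, xU_val]
  exact Cfsg.Agent.S2157.result D hD χ hχ r hr t

theorem charDiag_comm_diag {F : Type*} [Field F] (D : ChevalleyDatum)
    (hD : D ∈ [chevG2, chevB2, chevD4, chevF4, chevE6, chevE7, chevE8]) (hnx : NXAll D)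
    (hc : HCert D) (χ : ℕ → Fˣ) (g h : GL D.Idx F)
    (hgχ : (g : Matrix D.Idx D.Idx F) = D.charDiag F χ) (hh : h ∈ D.diagonalSubgroup F) :
    g * h * g⁻¹ = h := by
  obtain ⟨c, -, e⟩ := diag_eq_sdiag D hD hnx hc h hh
  have : g * h = h * g := by
    apply Units.ext
    rw [Units.val_mul, Units.val_mul, e, hgχ]
    unfold sdiag ChevalleyDatum.charDiag
    rw [Matrix.diagonal_mul_diagonal, Matrix.diagonal_mul_diagonal]
    congr 1
    funext k
    exact mul_comm _ _
  rw [this]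
  group

theorem charDiag_mem_diag {F : Type*} [Field F] (D : ChevalleyDatum)
    (hD : D ∈ [chevG2, chevB2, chevD4, chevF4, chevE6, chevE7, chevE8]) (χ : ℕ → Fˣ)
    (hχ : D.IsRootCharacter χ) (g : GL D.Idx F) (hg : g ∈ D.group F)
    (hgχ : (g : Matrix D.Idx D.Idx F) = D.charDiag F χ) : g ∈ D.diagonalSubgroup F := by
  have ce := certs_of_mem F D hD
  obtain ⟨P, hP⟩ := exists_stdBN D hD ce
  have hU : ∀ c ∈ D.posUnipotent F, g * c * g⁻¹ ∈ D.posUnipotent F := by
    intro c hc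
    unfold ChevalleyDatum.posUnipotent at hc
    induction hc using Subgroup.closure_induction with
    | mem x hx =>
      obtain ⟨r, t, hr, hx⟩ := hx
      rw [eq_xU D hD r t x hx, charDiag_conj_xU D hD χ hχ g hgχ r hr.1 t]
      exact xU_mem_pos D hD r hr _
    | one => simp
    | mul x y _ _ hx hy =>
      have e : g * (x * y) * g⁻¹ = g * x * g⁻¹ * (g * y * g⁻¹) := by group
      rw [e]
      exact Subgroup.mul_mem _ hx hy
    | inv x _ hx =>
      have e : g * x⁻¹ * g⁻¹ = (g * x * g⁻¹)⁻¹ := by group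
      rw [e]
      exact Subgroup.inv_mem _ hx
  have h3 : (↑(D.posUnipotent F ⊔ D.diagonalSubgroup F) : Set (GL D.Idx F)) =
      (↑(D.posUnipotent F) : Set (GL D.Idx F)) * (↑(D.diagonalSubgroup F) : Set (GL D.Idx F)) :=
    Subgroup.coe_mul_of_right_le_normalizer_left _ _ (diag_le_normalizer_pos D hD ce.hnx ce.hc)
  have hB : ∀ c ∈ D.borelSubgroup F, g * c * g⁻¹ ∈ D.borelSubgroup F := by
    intro c hc
    have hc' : c ∈ (↑(D.posUnipotent F ⊔ D.diagonalSubgroup F) : Set (GL D.Idx F)) := hc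
    rw [h3] at hc'
    obtain ⟨u, hu, h, hh, e⟩ := hc'
    have e' : u * h = c := e
    subst e'
    have e2 : g * (u * h) * g⁻¹ = g * u * g⁻¹ * (g * h * g⁻¹) := by group
    rw [e2, charDiag_comm_diag D hD ce.hnx ce.hc χ g h hgχ hh]
    exact Subgroup.mul_mem _ (Subgroup.mem_sup_left (hU u hu)) (Subgroup.mem_sup_right hh)
  have hgB : (⟨g, hg⟩ : ↥(D.group F)) ∈ P.B := by
    apply BN.mem_of_conj_B_le P P.B le_rfl
    intro c hc
    rw [hP.memB] at hc ⊢
    exact hB _ hc
  rw [hP.memB] at hgB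
  apply borel_diag_mem D hD ce.hnx ce.hc ce.htri g hgB
  intro row col hrc
  rw [hgχ]
  unfold ChevalleyDatum.charDiag
  exact Matrix.diagonal_apply_ne _ hrc

end Cfsg.Agent.Lib.helper11
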