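import Cfsg.Agent.Lib.helper11.ChevBN

/-! The Chevalley group is generated by the root elements of the fundamental roots and of
their negatives. -/

set_option autoImplicit false

namespace Cfsg.Agent.Lib.helper11

open Cfsg Cfsg.Lie

/-- a subgroup containing the fundamental root elements and their negatives contains every
root element -/
theorem xU_mem_of_simple {F : Type*} [Field F] (D : ChevalleyDatum)
    (hD : D ∈ [chevG2, chevB2, chevD4, chevF4, chevE6, chevE7, chevE8]) (hnx : NXAll D)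
    (hc : HCert D) (K : Subgroup (GL D.Idx F))
    (hK : ∀ i < D.rank, ∀ t : F, xU D hD (D.simple i) t ∈ K ∧
      xU D hD (D.neg (D.simple i)) t ∈ K) :
    ∀ r < D.nroots, ∀ t : F, xU D hD r t ∈ K := by
  have hn : ∀ i < D.rank, nU D hD (D.simple i) (1 : F) ∈ K := by
    intro i hi
    unfold nU
    exact K.mul_mem (K.mul_mem (hK i hi 1).1 (hK i hi _).2) (hK i hi 1).1
  apply root_induction D (fun i hi => (hnx i hi).1) hc.1 (fun r => ∀ t : F, xU D hD r t ∈ K)
  · intro j hj t
    exact (hK j hj t).1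
  · intro i hi s hs hP t
    have h1 := nU_conj_x (F := F) D hD hnx i s hi hs (((eta D i s : ℤ) : F) * t)
    rw [eta_mul_self D i s (ok_of_mem D hD i hi) hs t] at h1
    rw [← h1]
    exact K.mul_mem (K.mul_mem (hn i hi) (hP _)) (K.inv_mem (hn i hi))

theorem group_le_of_simple {F : Type*} [Field F] (D : ChevalleyDatum)
    (hD : D ∈ [chevG2, chevB2, chevD4, chevF4, chevE6, chevE7, chevE8]) (hnx : NXAll D)
    (hc : HCert D) (K : Subgroup (GL D.Idx F))
    (hK : ∀ i < D.rank, ∀ t : F, xU D hD (D.simple i) t ∈ K ∧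
      xU D hD (D.neg (D.simple i)) t ∈ K) : D.group F ≤ K := by
  unfold ChevalleyDatum.group
  rw [Subgroup.closure_le]
  rintro g ⟨r, t, hg⟩
  have h1 : g = xU D hD r t := by
    apply eq_xU D hD r t g
    rw [hg]
    simp [ChevalleyDatum.x, r.2]
  rw [h1]
  exact xU_mem_of_simple D hD hnx hc K hK r r.2 t

/-- the set of fundamental root elements and their negatives -/
def simpleGens (F : Type*) [Field F] (D : ChevalleyDatum) : Set (GL D.Idx F) :=
  {g | ∃ i < D.rank, ∃ t : F, (g : Matrix D.Idx D.Idx F) = D.x F (D.simple i) t ∨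
    (g : Matrix D.Idx D.Idx F) = D.x F (D.neg (D.simple i)) t}

theorem group_eq_closure_simpleGens {F : Type*} [Field F] (D : ChevalleyDatum)
    (hD : D ∈ [chevG2, chevB2, chevD4, chevF4, chevE6, chevE7, chevE8]) (hnx : NXAll D)
    (hc : HCert D) : D.group F = Subgroup.closure (simpleGens F D) := by
  apply le_antisymm
  · apply group_le_of_simple D hD hnx hc
    intro i hi t
    exact ⟨Subgroup.subset_closure ⟨i, hi, t, Or.inl rfl⟩,
      Subgroup.subset_closure ⟨i, hi, t, Or.inr rfl⟩⟩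
  · rw [Subgroup.closure_le]
    rintro g ⟨i, hi, t, h | h⟩
    · rw [eq_xU D hD _ t g h]
      exact xU_mem_group D hD _ t
    · rw [eq_xU D hD _ t g h]
      exact xU_mem_group D hD _ t

/-- two homomorphisms on the Chevalley group agreeing on the fundamental root elements and
their negatives are equal -/
theorem hom_ext_simple {F : Type*} [Field F] {M : Type*} [Monoid M] (D : ChevalleyDatum)
    (hD : D ∈ [chevG2, chevB2, chevD4, chevF4, chevE6, chevE7, chevE8]) (hnx : NXAll D)
    (hc : HCert D) (φ ψ : ↥(D.group F) →* M)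
    (h : ∀ (g : ↥(D.group F)) (i : ℕ) (t : F), i < D.rank →
      (((g : GL D.Idx F) : Matrix D.Idx D.Idx F) = D.x F (D.simple i) t ∨
        ((g : GL D.Idx F) : Matrix D.Idx D.Idx F) = D.x F (D.neg (D.simple i)) t) → φ g = ψ g)
    (y : ↥(D.group F)) : φ y = ψ y := by
  have hle : Subgroup.closure (simpleGens F D) ≤ D.group F := by
    rw [← group_eq_closure_simpleGens D hD hnx hc]
  have key : ∀ x ∈ Subgroup.closure (simpleGens F D), ∀ hx : x ∈ D.group F,
      φ ⟨x, hx⟩ = ψ ⟨x, hx⟩ := by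
    intro x hx
    induction hx using Subgroup.closure_induction with
    | mem x hx =>
      intro hxG
      obtain ⟨i, hi, t, hh⟩ := hx
      exact h ⟨x, hxG⟩ i t hi hh
    | one =>
      intro hxG
      have : (⟨1, hxG⟩ : ↥(D.group F)) = 1 := rfl
      rw [this, map_one, map_one]
    | mul x y hx hy ihx ihy =>
      intro hxG
      have : (⟨x * y, hxG⟩ : ↥(D.group F)) = ⟨x, hle hx⟩ * ⟨y, hle hy⟩ := rfl
      rw [this, map_mul, map_mul, ihx, ihy]
    | inv x hx ih =>
      intro hxG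
      have : (⟨x⁻¹, hxG⟩ : ↥(D.group F)) = (⟨x, hle hx⟩ : ↥(D.group F))⁻¹ := rfl
      rw [this]
      have e1 := ih (hle hx)
      have h1 : φ (⟨x, hle hx⟩ : ↥(D.group F))⁻¹ * φ ⟨x, hle hx⟩ = 1 := by
        rw [← map_mul, inv_mul_cancel, map_one]
      have h2 : ψ ⟨x, hle hx⟩ * ψ (⟨x, hle hx⟩ : ↥(D.group F))⁻¹ = 1 := by
        rw [← map_mul, mul_inv_cancel, map_one]
      calc φ (⟨x, hle hx⟩ : ↥(D.group F))⁻¹
          = φ (⟨x, hle hx⟩ : ↥(D.group F))⁻¹ * (ψ ⟨x, hle hx⟩ *
              ψ (⟨x, hle hx⟩ : ↥(D.group F))⁻¹) := by rw [h2, mul_one]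
        _ = (φ (⟨x, hle hx⟩ : ↥(D.group F))⁻¹ * φ ⟨x, hle hx⟩) *
              ψ (⟨x, hle hx⟩ : ↥(D.group F))⁻¹ := by rw [← e1, mul_assoc]
        _ = ψ (⟨x, hle hx⟩ : ↥(D.group F))⁻¹ := by rw [h1, one_mul]
  have hy : (y : GL D.Idx F) ∈ Subgroup.closure (simpleGens F D) := by
    rw [← group_eq_closure_simpleGens D hD hnx hc]
    exact y.2
  exact key _ hy y.2

end Cfsg.Agent.Lib.helper11
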