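import Cfsg.Agent.Lib.helper11.ChevBN
import Cfsg.Agent.Lib.helper11.ChevHAll
import Cfsg.Agent.Lib.helper11.ChevHOK
import Cfsg.Prelude.Def_ChevAutomorphisms

/-! An automorphism permuting the fundamental root elements by a diagram symmetry permutes all
root elements up to sign. -/

set_option autoImplicit false

namespace Cfsg.Agent.Lib.helper11

open Cfsg Cfsg.Lie

/-- `permRoot` for a permutation given by its list of values -/
def permRootL (D : ChevalleyDatum) (l : List ℕ) (r : ℕ) : ℕ :=
  ((List.range D.nroots).find? fun s => (List.range D.rank).all fun i =>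
      (D.coroot.getD s #[]).getD (l.getD i 0) 0 == (D.coroot.getD r #[]).getD i 0).getD r

/-- the list of values of a permutation of the nodes -/
def permL (D : ChevalleyDatum) (π : Equiv.Perm (Fin D.rank)) : List ℕ :=
  (List.finRange D.rank).map fun i => (π i).val

theorem permL_getD (D : ChevalleyDatum) (π : Equiv.Perm (Fin D.rank)) (i : Fin D.rank) :
    (permL D π).getD i.val 0 = (π i).val := by
  unfold permL
  have hlen : i.val < ((List.finRange D.rank).map fun i => (π i).val).length := by simp
  rw [List.getD_eq_getElem _ _ hlen]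
  simp

theorem permRoot_eq (D : ChevalleyDatum) (π : Equiv.Perm (Fin D.rank)) (r : ℕ) :
    D.permRoot π r = permRootL D (permL D π) r := by
  unfold ChevalleyDatum.permRoot permRootL
  have key : ∀ s : ℕ, ((List.finRange D.rank).all fun i =>
      (D.coroot.getD s #[]).getD (π i).val 0 == (D.coroot.getD r #[]).getD i.val 0) =
      ((List.range D.rank).all fun i =>
      (D.coroot.getD s #[]).getD ((permL D π).getD i 0) 0 == (D.coroot.getD r #[]).getD i 0) := by
    intro s
    rw [Bool.eq_iff_iff, List.all_eq_true, List.all_eq_true]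
    constructor
    · intro h i hi
      rw [List.mem_range] at hi
      have := h ⟨i, hi⟩ (List.mem_finRange _)
      rw [← permL_getD] at this
      exact this
    · intro h i _
      have := h i.val (List.mem_range.mpr i.2)
      rw [permL_getD] at this
      exact this
  simp only [key]

/-- the list of values preserves the bonds -/
def symL (D : ChevalleyDatum) (l : List ℕ) : Bool :=
  (List.range D.rank).all fun i => (List.range D.rank).all fun j =>
    i == j || decide (D.bonds (l.getD i 0) (l.getD j 0) = D.bonds i j)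

theorem symL_of (D : ChevalleyDatum) (π : Equiv.Perm (Fin D.rank))
    (hπ : D.IsDiagramSymmetry π) : symL D (permL D π) = true := by
  unfold symL
  rw [List.all_eq_true]
  intro i hi
  rw [List.all_eq_true]
  intro j hj
  rw [List.mem_range] at hi hj
  by_cases hij : i = j
  · simp [hij]
  · rw [Bool.or_eq_true, decide_eq_true_eq]
    right
    have := hπ ⟨i, hi⟩ ⟨j, hj⟩ (by simpa using hij)
    rw [← permL_getD, ← permL_getD] at this
    exact this

/-- the permutation of the roots is compatible with the fundamental reflections -/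
def graphOK (D : ChevalleyDatum) (l : List ℕ) : Bool :=
  (List.range D.rank).all (fun j => permRootL D l (D.simple j) == D.simple (l.getD j 0)) &&
  (List.range D.nroots).all (fun s => decide (permRootL D l s < D.nroots) &&
    (List.range D.rank).all fun i =>
      permRootL D l (rr D i s) == rr D (l.getD i 0) (permRootL D l s))

theorem graph_aut_root {F : Type*} [Field F] (D : ChevalleyDatum)
    (hD : D ∈ [chevG2, chevB2, chevD4, chevF4, chevE6, chevE7, chevE8])
    (π : Equiv.Perm (Fin D.rank)) (hok : graphOK D (permL D π) = true)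
    (φ : ↥(D.group F) ≃* ↥(D.group F))
    (hφ : ∀ (g : ↥(D.group F)) (i : Fin D.rank) (t : F),
      (((g : GL D.Idx F) : Matrix D.Idx D.Idx F) = D.x F (D.simple i) t →
        ((φ g : GL D.Idx F) : Matrix D.Idx D.Idx F) = D.x F (D.simple (π i)) t) ∧
      (((g : GL D.Idx F) : Matrix D.Idx D.Idx F) = D.x F (D.neg (D.simple i)) t →
        ((φ g : GL D.Idx F) : Matrix D.Idx D.Idx F) = D.x F (D.neg (D.simple (π i))) t))
    (r : ℕ) (hr : r < D.nroots) :
    ∃ ε : F, (ε = 1 ∨ ε = -1) ∧ ∀ (g : ↥(D.group F)) (t : F),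
      ((g : GL D.Idx F) : Matrix D.Idx D.Idx F) = D.x F r t →
        ((φ g : GL D.Idx F) : Matrix D.Idx D.Idx F) = D.x F (D.permRoot π r) (ε * t) := by
  have hnx := nxAll_of_mem D hD
  have hc := hcert_of_mem D hD
  unfold graphOK at hok
  simp only [Bool.and_eq_true, List.all_eq_true, List.mem_range, decide_eq_true_eq,
    beq_iff_eq, rr_eq] at hok
  obtain ⟨ha, hb⟩ := hok
  set l := permL D π with hl
  let xg : ℕ → F → ↥(D.group F) := fun r t => ⟨xU D hD r t, xU_mem_group D hD r t⟩
  let sg : ℕ → ↥(D.group F) := fun i => ⟨nU D hD (D.simple i) 1, nU_mem_group D hD _ _⟩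
  have hφ1 : ∀ (i : Fin D.rank) (t : F),
      (φ (xg (D.simple i) t) : GL D.Idx F) = xU D hD (D.simple (π i)) t := by
    intro i t
    apply Units.ext
    exact (hφ (xg (D.simple i) t) i t).1 rfl
  have hφ2 : ∀ (i : Fin D.rank) (t : F),
      (φ (xg (D.neg (D.simple i)) t) : GL D.Idx F) = xU D hD (D.neg (D.simple (π i))) t := by
    intro i t
    apply Units.ext
    exact (hφ (xg (D.neg (D.simple i)) t) i t).2 rfl
  have hn : ∀ i : Fin D.rank, (φ (sg i) : GL D.Idx F) = nU D hD (D.simple (π i)) 1 := by
    intro i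
    have e : sg i = xg (D.simple i) 1 * xg (D.neg (D.simple i)) (-(1 : F)⁻¹) *
        xg (D.simple i) 1 := rfl
    rw [e, map_mul, map_mul, Subgroup.coe_mul, Subgroup.coe_mul, hφ1, hφ2]
    rfl
  have main : ∀ r < D.nroots, ∃ ε : F, (ε = 1 ∨ ε = -1) ∧ ∀ t : F,
      (φ (xg r t) : GL D.Idx F) = xU D hD (permRootL D l r) (ε * t) := by
    apply root_induction D (fun i hi => (hnx i hi).1) hc.1
    · intro j hj
      refine ⟨1, Or.inl rfl, fun t => ?_⟩
      have := hφ1 ⟨j, hj⟩ t
      rw [ha j hj, one_mul, hl, permL_getD D π ⟨j, hj⟩]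
      exact this
    · intro i hi s hs ⟨ε, hε, h⟩
      have hps := (hb s hs).1
      have hN := ok_of_mem D hD i hi
      have hN' := ok_of_mem D hD (π ⟨i, hi⟩) (π ⟨i, hi⟩).2
      refine ⟨((eta D (π ⟨i, hi⟩) (permRootL D l s) : ℤ) : F) * ε * ((eta D i s : ℤ) : F),
        ?_, fun t => ?_⟩
      · rcases eta_sign D i s hN hs with h1 | h1 <;>
          rcases eta_sign D (π ⟨i, hi⟩) (permRootL D l s) hN' hps with h2 | h2 <;>
          rcases hε with h3 | h3 <;> rw [h1, h2, h3] <;> simp
      · have e1 : xg (D.reflectRoot i s) t =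
            sg i * xg s (((eta D i s : ℤ) : F) * t) * (sg i)⁻¹ := by
          apply Subtype.ext
          have h1 := nU_conj_x (F := F) D hD hnx i s hi hs (((eta D i s : ℤ) : F) * t)
          rw [eta_mul_self D i s hN hs t] at h1
          exact h1.symm
        rw [e1, map_mul, map_mul, map_inv, Subgroup.coe_mul, Subgroup.coe_mul,
          Subgroup.coe_inv, hn ⟨i, hi⟩, h,
          nU_conj_x (F := F) D hD hnx (π ⟨i, hi⟩) _ (π ⟨i, hi⟩).2 hps,
          (hb s hs).2 i hi, hl, permL_getD D π ⟨i, hi⟩]
        congr 1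
        ring
  obtain ⟨ε, hε, h⟩ := main r hr
  refine ⟨ε, hε, fun g t hg => ?_⟩
  have e : g = xg r t := Subtype.ext (eq_xU D hD r t _ hg)
  rw [e, h t, permRoot_eq]
  rfl

end Cfsg.Agent.Lib.helper11
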