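import Cfsg.Agent.Lib.helper11c.Graph1

/-! Certificates: the diagram symmetries of `D₄` and `E₆` act on the roots compatibly with the
fundamental reflections. -/

set_option autoImplicit false

namespace Cfsg.Agent.Lib.helper11

open Cfsg Cfsg.Lie

/-- a partial list of values preserves the bonds -/
def symPre (D : ChevalleyDatum) (l : List ℕ) : Bool :=
  (List.range l.length).all fun i => (List.range l.length).all fun j =>
    i == j || decide (D.bonds (l.getD i 0) (l.getD j 0) = D.bonds i j)

theorem symPre_of_symL (D : ChevalleyDatum) (p m : List ℕ) (h : symL D (p ++ m) = true)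
    (hlen : (p ++ m).length = D.rank) : symPre D p = true := by
  unfold symL at h
  unfold symPre
  rw [List.all_eq_true] at h ⊢
  have hle : p.length ≤ D.rank := by
    rw [← hlen, List.length_append]
    omega
  intro i hi
  rw [List.mem_range] at hi
  have h1 := h i (List.mem_range.mpr (by omega))
  rw [List.all_eq_true] at h1 ⊢
  intro j hj
  rw [List.mem_range] at hj
  have h2 := h1 j (List.mem_range.mpr (by omega))
  rw [List.getD_append _ _ _ _ hi, List.getD_append _ _ _ _ hj] at h2
  exact h2

/-- backtracking search over all lists of values -/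
def graphAll (D : ChevalleyDatum) : ℕ → List ℕ → Bool
  | 0, l => !symL D l || graphOK D l
  | k+1, l => (List.range D.rank).all fun a =>
      !symPre D (l ++ [a]) || graphAll D k (l ++ [a])

theorem graphAll_spec (D : ChevalleyDatum) : ∀ (k : ℕ) (l m : List ℕ),
    graphAll D k l = true → m.length = k → (∀ a ∈ m, a < D.rank) →
    (l ++ m).length = D.rank → symL D (l ++ m) = true → graphOK D (l ++ m) = true
  | 0, l, m, h, hm, _, _, hs => by
    have hm' : m = [] := List.length_eq_zero_iff.mp hm
    subst hm'
    rw [List.append_nil] at hs ⊢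
    unfold graphAll at h
    rw [Bool.or_eq_true, Bool.not_eq_true'] at h
    rcases h with h | h
    · rw [h] at hs
      exact absurd hs (by simp)
    · exact h
  | k+1, l, m, h, hm, hlt, hlen, hs => by
    match m, hm, hlt, hlen, hs with
    | a :: m', hm', hlt, hlen, hs =>
      have ha := hlt a (List.mem_cons_self)
      unfold graphAll at h
      rw [List.all_eq_true] at h
      have h1 := h a (List.mem_range.mpr ha)
      rw [Bool.or_eq_true, Bool.not_eq_true'] at h1
      have e : l ++ a :: m' = (l ++ [a]) ++ m' := by simp
      rw [e] at hs hlen ⊢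
      rcases h1 with h1 | h1
      · have := symPre_of_symL D (l ++ [a]) m' hs hlen
        rw [h1] at this
        exact absurd this (by simp)
      · exact graphAll_spec D k (l ++ [a]) m' h1 (by simpa using hm')
          (fun b hb => hlt b (List.mem_cons_of_mem _ hb)) hlen hs

theorem graphAll_D4 : graphAll chevD4 4 [] = true := by decide +kernel

theorem graphAll_E6 : graphAll chevE6 6 [] = true := by decide +kernel

theorem graphOK_of_sym (D : ChevalleyDatum) (hD : D ∈ [chevD4, chevE6])
    (π : Equiv.Perm (Fin D.rank)) (hπ : D.IsDiagramSymmetry π) :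
    graphOK D (permL D π) = true := by
  have hall : graphAll D D.rank [] = true := by
    simp only [List.mem_cons, List.not_mem_nil, or_false] at hD
    rcases hD with rfl | rfl
    · exact graphAll_D4
    · exact graphAll_E6
  have hlen : (permL D π).length = D.rank := by
    unfold permL
    simp
  have h := graphAll_spec D D.rank [] (permL D π) hall hlen ?_ (by simpa using hlen)
    (by simpa using symL_of D π hπ)
  · simpa using h
  · intro a ha
    unfold permL at ha
    rw [List.mem_map] at ha
    obtain ⟨i, -, rfl⟩ := ha
    exact (π i).2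

/-- the action on root elements of an automorphism inducing a diagram symmetry -/
theorem graph_root_D4E6 {F : Type*} [Field F] (D : ChevalleyDatum) (hD : D ∈ [chevD4, chevE6])
    (π : Equiv.Perm (Fin D.rank)) (hπ : D.IsDiagramSymmetry π)
    (φ : ↥(D.group F) ≃* ↥(D.group F))
    (hφ : ∀ (g : ↥(D.group F)) (i : Fin D.rank) (t : F),
      (((g : GL D.Idx F) : Matrix D.Idx D.Idx F) = D.x F (D.simple i) t →
        ((φ g : GL D.Idx F) : Matrix D.Idx D.Idx F) = D.x F (D.simple (π i)) t) ∧
      (((g : GL D.Idx F) : Matrix D.Idx D.Idx F) = D.x F (D.neg (D.simple i)) t →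
        ((φ g : GL D.Idx F) : Matrix D.Idx D.Idx F) = D.x F (D.neg (D.simple (π i))) t))
    (r : ℕ) (hr : r < D.nroots) :
    ∃ ε : F, (ε = 1 ∨ ε = -1) ∧ ∀ (g : ↥(D.group F)) (t : F),
      ((g : GL D.Idx F) : Matrix D.Idx D.Idx F) = D.x F r t →
        ((φ g : GL D.Idx F) : Matrix D.Idx D.Idx F) = D.x F (D.permRoot π r) (ε * t) := by
  have hD7 : D ∈ [chevG2, chevB2, chevD4, chevF4, chevE6, chevE7, chevE8] := by
    simp only [List.mem_cons, List.not_mem_nil, or_false] at hD ⊢
    tauto
  exact graph_aut_root D hD7 π (graphOK_of_sym D hD π hπ) φ hφ r hr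

end Cfsg.Agent.Lib.helper11
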