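import Cfsg.Agent.Lib.helper11.ChevBN
import Cfsg.Prelude.Def_ChevAutomorphisms

/-! Orbits of the Weyl group on the roots, and generation of the Chevalley group by `N` and
root subgroups. -/

set_option autoImplicit false

namespace Cfsg.Agent.Lib.helper11

open Cfsg Cfsg.Lie

/-- orbit certificate: every root descends, inside its class, to the canonical root of its
class -/
def orbOK (D : ChevalleyDatum) (cl : ℕ → Bool) (dd : List ℕ) (cS cL : ℕ) : Bool :=
  (List.range D.nroots).all fun r =>
    (dd.getD r 0 == 0 && r == (if cl r then cL else cS)) ||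
    (List.range D.rank).any fun i =>
      decide (dd.getD (rr D i r) 0 < dd.getD r 0) && (cl (rr D i r) == cl r)

theorem orb_iff (D : ChevalleyDatum) (hw : ∀ i < D.rank, wOK D i = true)
    (cl : ℕ → Bool) (dd : List ℕ) (cS cL : ℕ) (h : orbOK D cl dd cS cL = true)
    (Q : ℕ → Prop) (hstep : ∀ i < D.rank, ∀ s < D.nroots, Q s → Q (D.reflectRoot i s)) :
    ∀ r < D.nroots, (Q r ↔ Q (if cl r then cL else cS)) := by
  intro r
  induction' hm : dd.getD r 0 using Nat.strong_induction_on with m ih generalizing r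
  intro hr
  unfold orbOK at h
  rw [List.all_eq_true] at h
  have h1 := h r (List.mem_range.mpr hr)
  rw [Bool.or_eq_true] at h1
  rcases h1 with h1 | h1
  · rw [Bool.and_eq_true] at h1
    have h2 : r = (if cl r then cL else cS) := by simpa using h1.2
    rw [← h2]
  · rw [List.any_eq_true] at h1
    obtain ⟨i, hi, h2⟩ := h1
    rw [List.mem_range] at hi
    rw [Bool.and_eq_true, decide_eq_true_eq, rr_eq, beq_iff_eq] at h2
    obtain ⟨hlt, hcl⟩ := h2
    have hs := refl_lt D i r (hw i hi) hr
    have h3 := ih _ (hm ▸ hlt) (D.reflectRoot i r) rfl hs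
    rw [hcl] at h3
    rw [← h3]
    constructor
    · exact hstep i hi r hr
    · intro hq
      have := hstep i hi _ hs hq
      rwa [refl_refl D i r (hw i hi) hr] at this

/-- the root elements in a subgroup containing the `n_p` are stable under reflections -/
theorem xU_mem_refl {F : Type*} [Field F] (D : ChevalleyDatum)
    (hD : D ∈ [chevG2, chevB2, chevD4, chevF4, chevE6, chevE7, chevE8]) (hnx : NXAll D)
    (K : Subgroup (GL D.Idx F)) (hN : ∀ i < D.rank, nU D hD (D.simple i) (1 : F) ∈ K)
    (i : ℕ) (hi : i < D.rank) (s : ℕ) (hs : s < D.nroots)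
    (hP : ∀ t : F, xU D hD s t ∈ K) : ∀ t : F, xU D hD (D.reflectRoot i s) t ∈ K := by
  intro t
  have h1 := nU_conj_x (F := F) D hD hnx i s hi hs (((eta D i s : ℤ) : F) * t)
  rw [eta_mul_self D i s (ok_of_mem D hD i hi) hs t] at h1
  rw [← h1]
  exact K.mul_mem (K.mul_mem (hN i hi) (hP _)) (K.inv_mem (hN i hi))

/-- a subgroup containing `N` contains the root elements of `r` iff it contains those of the
canonical root of the class of `r` -/
theorem xU_mem_iff_canon {F : Type*} [Field F] (D : ChevalleyDatum)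
    (hD : D ∈ [chevG2, chevB2, chevD4, chevF4, chevE6, chevE7, chevE8]) (hnx : NXAll D)
    (hc : HCert D) (cl : ℕ → Bool) (dd : List ℕ) (cS cL : ℕ) (h : orbOK D cl dd cS cL = true)
    (K : Subgroup (GL D.Idx F)) (hN : D.monomialSubgroup F ≤ K) (r : ℕ) (hr : r < D.nroots) :
    (∀ t : F, xU D hD r t ∈ K) ↔ (∀ t : F, xU D hD (if cl r then cL else cS) t ∈ K) :=
  orb_iff D (fun i hi => (hnx i hi).1) cl dd cS cL h (fun r => ∀ t : F, xU D hD r t ∈ K)
    (fun i hi s hs hP => xU_mem_refl D hD hnx K
      (fun j hj => hN (nU_mem_mono D hD _ (simple_lt D hc j hj))) i hi s hs hP) r hr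

theorem group_le_of_all {F : Type*} [Field F] (D : ChevalleyDatum)
    (hD : D ∈ [chevG2, chevB2, chevD4, chevF4, chevE6, chevE7, chevE8])
    (K : Subgroup (GL D.Idx F)) (hK : ∀ r < D.nroots, ∀ t : F, xU D hD r t ∈ K) :
    D.group F ≤ K := by
  unfold ChevalleyDatum.group
  rw [Subgroup.closure_le]
  rintro g ⟨r, t, hg⟩
  have h1 : g = xU D hD r t := by
    apply eq_xU D hD r t g
    rw [hg]
    simp [ChevalleyDatum.x, r.2]
  rw [h1]
  exact hK r r.2 t

/-- `G ≤ K` if `K` contains `N` and the root elements of the two canonical roots -/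
theorem group_le_of_canon {F : Type*} [Field F] (D : ChevalleyDatum)
    (hD : D ∈ [chevG2, chevB2, chevD4, chevF4, chevE6, chevE7, chevE8]) (hnx : NXAll D)
    (hc : HCert D) (cl : ℕ → Bool) (dd : List ℕ) (cS cL : ℕ) (h : orbOK D cl dd cS cL = true)
    (K : Subgroup (GL D.Idx F)) (hN : D.monomialSubgroup F ≤ K)
    (hS : ∀ t : F, xU D hD cS t ∈ K) (hL : ∀ t : F, xU D hD cL t ∈ K) : D.group F ≤ K := by
  apply group_le_of_all D hD
  intro r hr
  rw [xU_mem_iff_canon D hD hnx hc cl dd cS cL h K hN r hr]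
  by_cases hcl : cl r = true
  · rw [if_pos hcl]
    exact hL
  · rw [if_neg hcl]
    exact hS

/-- a commutator relation with a single term gives the root elements of the sum -/
theorem xU_mem_of_comm {F : Type*} [Field F] (D : ChevalleyDatum)
    (hD : D ∈ [chevG2, chevB2, chevD4, chevF4, chevE6, chevE7, chevE8])
    (K : Subgroup (GL D.Idx F)) (r s k : ℕ) (c : ℤ) (hrel : CommRel F D r s)
    (hterm : D.commTerms r s = [(k, c, 1, 1)]) (hc0 : (c : F) ≠ 0)
    (hr : ∀ t : F, xU D hD r t ∈ K) (hs : ∀ t : F, xU D hD s t ∈ K) :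
    ∀ t : F, xU D hD k t ∈ K := by
  intro t
  have h1 := hrel (-(t / (c : F))) 1
  have h2 : D.wordMat F (D.commWord F r s (-(t / (c : F))) 1) = D.x F k t := by
    unfold ChevalleyDatum.wordMat ChevalleyDatum.commWord
    rw [hterm]
    simp only [List.map_cons, List.map_nil, List.prod_cons, List.prod_nil, mul_one, pow_one,
      neg_neg]
    congr 1
    field_simp
  rw [h2] at h1
  have h3 : xU D hD s (1 : F) * xU D hD r (-(t / (c : F))) =
      xU D hD r (-(t / (c : F))) * xU D hD s 1 * xU D hD k t := by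
    apply Units.ext
    simp only [Units.val_mul, xU_val]
    exact h1
  have h4 : xU D hD k t = (xU D hD r (-(t / (c : F))) * xU D hD s 1)⁻¹ *
      (xU D hD s (1 : F) * xU D hD r (-(t / (c : F)))) := by
    rw [h3]
    group
  rw [h4]
  exact K.mul_mem (K.inv_mem (K.mul_mem (hr _) (hs _))) (K.mul_mem (hs _) (hr _))

end Cfsg.Agent.Lib.helper11
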