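import Cfsg.Agent.Lib.helper11c.OrbOK
import Cfsg.Agent.Lib.helper11.ChevCommAll
import Cfsg.Agent.Lib.helper11.ChevHAll
import Cfsg.Agent.Lib.helper11.ChevNXAll

/-! The Chevalley group is generated by `N` and one or two fundamental root subgroups. -/

set_option autoImplicit false

namespace Cfsg.Agent.Lib.helper11

open Cfsg Cfsg.Lie

/-- one class -/
theorem group_le_one {F : Type*} [Field F] (D : ChevalleyDatum)
    (hD : D ∈ [chevG2, chevB2, chevD4, chevF4, chevE6, chevE7, chevE8])
    (dd : List ℕ) (c0 : ℕ) (h : orbOK D (fun _ => false) dd c0 c0 = true)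
    (K : Subgroup (GL D.Idx F)) (hN : D.monomialSubgroup F ≤ K)
    (i : ℕ) (hi : i < D.rank) (hp : ∀ t : F, xU D hD (D.simple i) t ∈ K) : D.group F ≤ K := by
  have hnx := nxAll_of_mem D hD
  have hc := hcert_of_mem D hD
  have h1 := (xU_mem_iff_canon D hD hnx hc _ dd c0 c0 h K hN _ (simple_lt D hc i hi)).mp hp
  simp only [Bool.false_eq_true, if_false] at h1
  exact group_le_of_canon D hD hnx hc _ dd c0 c0 h K hN h1 h1

/-- two classes, a short and a long fundamental root -/
theorem group_le_two' {F : Type*} [Field F] (D : ChevalleyDatum)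
    (hD : D ∈ [chevG2, chevB2, chevD4, chevF4, chevE6, chevE7, chevE8])
    (dd : List ℕ) (cS cL : ℕ) (h : orbOK D D.isLong dd cS cL = true)
    (K : Subgroup (GL D.Idx F)) (hN : D.monomialSubgroup F ≤ K)
    (r k : ℕ) (hr : r < D.nroots) (hk : k < D.nroots)
    (hshort : D.isLong r = false) (hlong : D.isLong k = true)
    (hpi : ∀ t : F, xU D hD r t ∈ K) (hpj : ∀ t : F, xU D hD k t ∈ K) :
    D.group F ≤ K := by
  have hnx := nxAll_of_mem D hD
  have hc := hcert_of_mem D hD
  have h1 := (xU_mem_iff_canon D hD hnx hc _ dd cS cL h K hN _ hr).mp hpi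
  rw [hshort] at h1
  simp only [Bool.false_eq_true, if_false] at h1
  have h2 := (xU_mem_iff_canon D hD hnx hc _ dd cS cL h K hN _ hk).mp hpj
  rw [hlong] at h2
  simp only [if_true] at h2
  exact group_le_of_canon D hD hnx hc _ dd cS cL h K hN h1 h2

/-- two classes, a short fundamental root and a commutator giving a long root -/
theorem group_le_two {F : Type*} [Field F] (D : ChevalleyDatum)
    (hD : D ∈ [chevG2, chevB2, chevD4, chevF4, chevE6, chevE7, chevE8])
    (dd : List ℕ) (cS cL : ℕ) (h : orbOK D D.isLong dd cS cL = true)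
    (K : Subgroup (GL D.Idx F)) (hN : D.monomialSubgroup F ≤ K)
    (r s k : ℕ) (c : ℤ) (hr : r < D.nroots) (hs : s < D.nroots) (hk : k < D.nroots)
    (hrs : s ≠ r) (hneg : s ≠ D.neg r) (hterm : D.commTerms r s = [(k, c, 1, 1)])
    (hlr : D.isLong r = false) (hls : D.isLong s = false) (hlk : D.isLong k = true)
    (hc0 : (c : F) ≠ 0) (i : ℕ) (hi : i < D.rank) (hshort : D.isLong (D.simple i) = false)
    (hp : ∀ t : F, xU D hD (D.simple i) t ∈ K) : D.group F ≤ K := by
  have hnx := nxAll_of_mem D hD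
  have hc := hcert_of_mem D hD
  have h1 := (xU_mem_iff_canon D hD hnx hc _ dd cS cL h K hN _ (simple_lt D hc i hi)).mp hp
  rw [hshort] at h1
  simp only [Bool.false_eq_true, if_false] at h1
  have hQr : ∀ t : F, xU D hD r t ∈ K := by
    rw [xU_mem_iff_canon D hD hnx hc _ dd cS cL h K hN _ hr, hlr]
    simpa only [Bool.false_eq_true, if_false] using h1
  have hQs : ∀ t : F, xU D hD s t ∈ K := by
    rw [xU_mem_iff_canon D hD hnx hc _ dd cS cL h K hN _ hs, hls]
    simpa only [Bool.false_eq_true, if_false] using h1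
  have hQk := xU_mem_of_comm D hD K r s k c (commRel_of_mem F D hD r s hr hs hrs hneg) hterm hc0
    hQr hQs
  exact group_le_two' D hD dd cS cL h K hN (D.simple i) k (simple_lt D hc i hi) hk hshort hlk
    hp hQk

theorem two_cast_ne {K : Type*} [Field K] (h : ringChar K ≠ 2) : (((2 : ℤ)) : K) ≠ 0 := by
  have := Ring.two_ne_zero h
  exact_mod_cast this

theorem three_cast_ne {K : Type*} [Field K] (h3 : ringChar K ≠ 3) : (((3 : ℤ)) : K) ≠ 0 := by
  intro h
  have h' : ((3 : ℕ) : K) = 0 := by exact_mod_cast h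
  rw [CharP.cast_eq_zero_iff K (ringChar K)] at h'
  rcases (Nat.dvd_prime Nat.prime_three).mp h' with h1 | h1
  · exact CharP.ringChar_ne_one h1
  · exact h3 h1

/-- `G = ⟨N, X_p⟩` for a short fundamental root `p` -/
theorem gen_N_short {K : Type*} [Field K] (D : ChevalleyDatum)
    (hD : D ∈ [chevG2, chevB2, chevD4, chevF4, chevE6, chevE7, chevE8])
    (h2 : D ∈ [chevB2, chevF4] → ringChar K ≠ 2) (h3 : D = chevG2 → ringChar K ≠ 3)
    (i : ℕ) (hi : i < D.rank) (hshort : D.isLong (D.simple i) = false) :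
    D.group K ≤ D.monomialSubgroup K ⊔ D.rootSubgroup K (D.simple i) := by
  have hN : D.monomialSubgroup K ≤ D.monomialSubgroup K ⊔ D.rootSubgroup K (D.simple i) :=
    le_sup_left
  have hp : ∀ t : K, xU D hD (D.simple i) t ∈
      D.monomialSubgroup K ⊔ D.rootSubgroup K (D.simple i) :=
    fun t => Subgroup.mem_sup_right (xU_mem_rootSubgroup D hD _ t)
  have hD' := hD
  simp only [List.mem_cons, List.not_mem_nil, or_false] at hD'
  rcases hD' with rfl | rfl | rfl | rfl | rfl | rfl | rfl
  · exact group_le_two chevG2 hD orbDDG2 7 6 orbOK_G2 _ hN 2 3 0 3 (by decide) (by decide)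
      (by decide) (by decide) (by decide) (by decide) (by decide) (by decide) (by decide)
      (three_cast_ne (h3 rfl)) i hi hshort hp
  · exact group_le_two chevB2 hD orbDDB2 5 4 orbOK_B2 _ hN 1 2 0 2 (by decide) (by decide)
      (by decide) (by decide) (by decide) (by decide) (by decide) (by decide) (by decide)
      (two_cast_ne (h2 (by simp))) i hi hshort hp
  · exact group_le_one chevD4 hD orbDDD4 18 orbOK_D4 _ hN i hi hp
  · exact group_le_two chevF4 hD orbDDF4 33 25 orbOK_F4 _ hN 3 18 0 2 (by decide) (by decide)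
      (by decide) (by decide) (by decide) (by decide) (by decide) (by decide) (by decide)
      (two_cast_ne (h2 (by simp))) i hi hshort hp
  · exact group_le_one chevE6 hD orbDDE6 56 orbOK_E6 _ hN i hi hp
  · exact group_le_one chevE7 hD orbDDE7 93 orbOK_E7 _ hN i hi hp
  · exact group_le_one chevE8 hD orbDDE8 162 orbOK_E8 _ hN i hi hp

/-- `G = ⟨N, X_a, X_b⟩` for a short fundamental root `a` and a long one `b` -/
theorem gen_N_short_long {K : Type*} [Field K] (D : ChevalleyDatum)
    (hD : D ∈ [chevB2, chevF4, chevG2])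
    (i j : ℕ) (hi : i < D.rank) (hj : j < D.rank) (hshort : D.isLong (D.simple i) = false)
    (hlong : D.isLong (D.simple j) = true) :
    D.group K ≤ D.monomialSubgroup K ⊔ D.rootSubgroup K (D.simple i) ⊔
      D.rootSubgroup K (D.simple j) := by
  have hD7 : D ∈ [chevG2, chevB2, chevD4, chevF4, chevE6, chevE7, chevE8] := by
    simp only [List.mem_cons, List.not_mem_nil, or_false] at hD ⊢
    tauto
  have hc := hcert_of_mem D hD7
  have hN : D.monomialSubgroup K ≤ D.monomialSubgroup K ⊔ D.rootSubgroup K (D.simple i) ⊔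
      D.rootSubgroup K (D.simple j) := le_sup_of_le_left le_sup_left
  have hpi : ∀ t : K, xU D hD7 (D.simple i) t ∈
      D.monomialSubgroup K ⊔ D.rootSubgroup K (D.simple i) ⊔ D.rootSubgroup K (D.simple j) :=
    fun t => Subgroup.mem_sup_left (Subgroup.mem_sup_right (xU_mem_rootSubgroup D hD7 _ t))
  have hpj : ∀ t : K, xU D hD7 (D.simple j) t ∈
      D.monomialSubgroup K ⊔ D.rootSubgroup K (D.simple i) ⊔ D.rootSubgroup K (D.simple j) :=
    fun t => Subgroup.mem_sup_right (xU_mem_rootSubgroup D hD7 _ t)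
  have hD' := hD
  simp only [List.mem_cons, List.not_mem_nil, or_false] at hD'
  rcases hD' with rfl | rfl | rfl
  · exact group_le_two' chevB2 hD7 orbDDB2 5 4 orbOK_B2 _ hN _ _ (simple_lt _ hc i hi)
      (simple_lt _ hc j hj) hshort hlong hpi hpj
  · exact group_le_two' chevF4 hD7 orbDDF4 33 25 orbOK_F4 _ hN _ _ (simple_lt _ hc i hi)
      (simple_lt _ hc j hj) hshort hlong hpi hpj
  · exact group_le_two' chevG2 hD7 orbDDG2 7 6 orbOK_G2 _ hN _ _ (simple_lt _ hc i hi)
      (simple_lt _ hc j hj) hshort hlong hpi hpj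

end Cfsg.Agent.Lib.helper11
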